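import Cfsg.Agent.Blocks.Orth.Blocks
import Mathlib.GroupTheory.Index

/-!
# Small facts for the application
-/

set_option autoImplicit false

namespace CfsgLib.RealVector


/-- A modular ideal exists. -/
theorem exists_modular (p : ℕ) [Fact p.Prime] : ∃ M : Ideal Cfsg.AlgInt, Cfsg.IsPModular p M :=
  CfsgLib.Blocks.exists_isPModular p Fact.out

/-- The product formula bound for subgroups. -/
theorem card_mul_card_inf_le {X : Type*} [Group X] [Finite X] (U V K : Subgroup X) (hUV : U ≤ V) :
    Nat.card U * Nat.card ↥(V ⊓ K) ≤ Nat.card V * Nat.card ↥(U ⊓ K) := by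
  have h1 : K.relIndex U ≤ K.relIndex V :=
    Subgroup.relIndex_le_of_le_right hUV Subgroup.index_ne_zero_of_finite
  have e : ∀ W : Subgroup X, K.relIndex W * Nat.card ↥(W ⊓ K) = Nat.card W := fun W => by
    rw [← Subgroup.inf_relIndex_left, ← Subgroup.relIndex_bot_left, mul_comm,
      Subgroup.relIndex_mul_relIndex _ _ _ bot_le inf_le_left, Subgroup.relIndex_bot_left]
  rw [← e U, ← e V]
  calc K.relIndex U * Nat.card ↥(U ⊓ K) * Nat.card ↥(V ⊓ K)
      ≤ K.relIndex V * Nat.card ↥(U ⊓ K) * Nat.card ↥(V ⊓ K) :=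
        Nat.mul_le_mul_right _ (Nat.mul_le_mul_right _ h1)
    _ = _ := by ring

end CfsgLib.RealVector
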