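import Cfsg.Agent.Chars.Apps.RootSums
import Cfsg.Agent.Chars.GaloisSum.Basic
import Mathlib.RingTheory.Polynomial.Cyclotomic.Roots
import Mathlib.RingTheory.Localization.Integral
import Mathlib.Algebra.Algebra.Hom.Rat

/-!
# Conjugates of algebraic integers in a cyclotomic field, through rational polynomials

`card_le_sum_norm_sq`: if `R ζ` is a nonzero algebraic integer then the squared absolute values of
`R μ` over all primitive `N`-th roots of unity add up to at least their number.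
-/

set_option autoImplicit false

namespace CfsgLib.RealVector

open Polynomial
open scoped ComplexConjugate

variable {N : ℕ} {ζ μ : ℂ}

/-- Vanishing at one primitive root passes to all. -/
theorem aeval_eq_zero_of_primitive (hN : 0 < N) (hζ : IsPrimitiveRoot ζ N)
    (hμ : IsPrimitiveRoot μ N) {R : ℚ[X]} (h : aeval ζ R = 0) : aeval μ R = 0 := by
  have hd := minpoly.dvd ℚ ζ h
  rw [← cyclotomic_eq_minpoly_rat hζ hN] at hd
  have h0 : aeval μ (cyclotomic N ℚ) = 0 := by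
    rw [cyclotomic_eq_minpoly_rat hμ hN, minpoly.aeval]
  exact aeval_eq_zero_of_dvd_aeval_eq_zero hd h0

/-- Equality at one primitive root passes to all. -/
theorem aeval_eq_of_primitive (hN : 0 < N) (hζ : IsPrimitiveRoot ζ N)
    (hμ : IsPrimitiveRoot μ N) {R S : ℚ[X]} (h : aeval ζ R = aeval ζ S) :
    aeval μ R = aeval μ S := by
  have := aeval_eq_zero_of_primitive hN hζ hμ (R := R - S) (by rw [map_sub, h, sub_self])
  rwa [map_sub, sub_eq_zero] at this

/-- Integrality at one primitive root passes to all. -/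
theorem isIntegral_aeval_of_primitive (hN : 0 < N) (hζ : IsPrimitiveRoot ζ N)
    (hμ : IsPrimitiveRoot μ N) {R : ℚ[X]} (h : IsIntegral ℤ (aeval ζ R)) :
    IsIntegral ℤ (aeval μ R) := by
  obtain ⟨g, hg, hg0⟩ := h
  refine ⟨g, hg, ?_⟩
  rw [← Polynomial.aeval_def] at hg0 ⊢
  have hc : ∀ z : ℂ, aeval z ((g.map (algebraMap ℤ ℚ)).comp R) = aeval (aeval z R) g := fun z => by
    rw [aeval_comp, aeval_map_algebraMap]
  rw [← hc]
  exact aeval_eq_zero_of_primitive hN hζ hμ (by rw [hc]; exact hg0)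

/-- The norm inequality. -/
theorem card_le_sum_norm_sq (hN : 0 < N) (hζ : IsPrimitiveRoot ζ N) {R : ℚ[X]}
    (hint : IsIntegral ℤ (aeval ζ R)) (hne : aeval ζ R ≠ 0) :
    ((primitiveRoots N ℂ).card : ℝ) ≤ ∑ μ ∈ primitiveRoots N ℂ, ‖aeval μ R‖ ^ 2 := by
  have hp : ∀ μ ∈ primitiveRoots N ℂ, IsPrimitiveRoot μ N := fun μ hμ => (mem_primitiveRoots hN).1 hμ
  have hnz : ∀ μ ∈ primitiveRoots N ℂ, aeval μ R ≠ 0 := fun μ hμ h0 =>
    hne (aeval_eq_zero_of_primitive hN (hp μ hμ) hζ h0)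
  refine CfsgLib.Chars.GaloisSum.card_le_sum_of_one_le_prod _ _
    (fun μ hμ => pow_pos (norm_pos_iff.2 (hnz μ hμ)) 2) ?_
  rw [Finset.prod_pow, ← norm_prod]
  refine one_le_pow₀ ?_
  obtain ⟨⟨b, hb⟩, hP⟩ := IsLocalization.integerNormalization_map_to_map (nonZeroDivisors ℤ) R
  set P := IsLocalization.integerNormalization (nonZeroDivisors ℤ) R
  have hb0 : b ≠ 0 := nonZeroDivisors.ne_zero hb
  have hval : ∀ z : ℂ, aeval z P = (b : ℂ) * aeval z R := by
    intro z
    have h1 := congrArg (aeval z) hP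
    rw [aeval_map_algebraMap] at h1
    rw [h1, zsmul_eq_mul, map_mul, map_intCast]
  obtain ⟨a, ha⟩ := CfsgLib.Chars.Apps.exists_intCast_eq_prod hN P
  rw [Finset.prod_congr rfl (fun μ _ => hval μ), Finset.prod_mul_distrib, Finset.prod_const] at ha
  set m := (primitiveRoots N ℂ).card
  set PR := ∏ μ ∈ primitiveRoots N ℂ, aeval μ R with hPR
  have hbm : (b : ℂ) ^ m ≠ 0 := pow_ne_zero _ (Int.cast_ne_zero.2 hb0)
  have hsq : ((b.natAbs : ℕ) : ℂ) ^ m * ((b.natAbs : ℕ) : ℂ) ^ m = (b : ℂ) ^ m * (b : ℂ) ^ m := by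
    rw [← mul_pow, ← mul_pow, ← Nat.cast_mul, ← Int.cast_mul, ← Int.natAbs_mul_self' b,
      Int.cast_mul, Nat.cast_mul, Int.cast_natCast]
  have hPRi : IsIntegral ℤ PR :=
    IsIntegral.prod _ fun μ hμ => isIntegral_aeval_of_primitive hN hζ (hp μ hμ) hint
  have hrepr : PR = (((a * b ^ m : ℤ)) : ℂ) / ((b.natAbs : ℕ) : ℂ) ^ (m + m) := by
    rw [pow_add, hsq, Int.cast_mul, Int.cast_pow, ha]
    field_simp
  obtain ⟨c, hc⟩ := CfsgLib.Chars.Apps.exists_intCast_eq_of_isIntegral_div (hrepr ▸ hPRi)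
  rw [← hrepr] at hc
  have hc0 : c ≠ 0 := by
    rintro rfl
    rw [Int.cast_zero] at hc
    exact Finset.prod_ne_zero_iff.2 hnz (hPR ▸ hc.symm)
  rw [← hc, Complex.norm_intCast]
  exact_mod_cast Int.one_le_abs hc0

/-- Complex conjugation is inversion of the root. -/
theorem conj_aeval (hN : 0 < N) (hμ : IsPrimitiveRoot μ N) (R : ℚ[X]) :
    conj (aeval μ R) = aeval μ (R.comp (X ^ (N - 1))) := by
  rw [aeval_comp, map_pow, aeval_X]
  have h1 : μ ^ (N - 1) = conj μ := by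
    rw [← Complex.inv_eq_conj (hμ.norm'_eq_one hN.ne')]
    exact eq_inv_of_mul_eq_one_left (by rw [← pow_succ, Nat.sub_add_cancel hN, hμ.pow_eq_one])
  rw [h1]
  exact (Polynomial.aeval_algHom_apply (RingHom.toRatAlgHom (starRingEnd ℂ)) μ R).symm

/-- A value with rational squared absolute value has the same absolute value at every root. -/
theorem norm_sq_aeval (hN : 0 < N) (hζ : IsPrimitiveRoot ζ N) (hμ : IsPrimitiveRoot μ N)
    {R : ℚ[X]} {q : ℚ} (h : ‖aeval ζ R‖ ^ 2 = (q : ℝ)) : ‖aeval μ R‖ ^ 2 = (q : ℝ) := by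
  have key : ∀ z : ℂ, IsPrimitiveRoot z N → (((‖aeval z R‖ ^ 2 : ℝ)) : ℂ) =
      aeval z (R * R.comp (X ^ (N - 1))) := fun z hz => by
    rw [map_mul, ← conj_aeval hN hz, Complex.mul_conj']
    push_cast
    rfl
  have h1 : aeval ζ (R * R.comp (X ^ (N - 1))) = aeval ζ (Polynomial.C q) := by
    rw [← key ζ hζ, h, aeval_C]
    simp
  have h2 := aeval_eq_of_primitive hN hζ hμ h1
  rw [← key μ hμ, aeval_C] at h2
  apply Complex.ofReal_injective
  rw [h2]
  simp

/-- Elements of the cyclotomic field are values of rational polynomials. -/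
theorem exists_aeval_eq {z : ℂ} (hz : z ∈ Algebra.adjoin ℚ ({ζ} : Set ℂ)) :
    ∃ R : ℚ[X], aeval ζ R = z := by
  rw [Algebra.adjoin_singleton_eq_range_aeval] at hz
  exact hz

end CfsgLib.RealVector
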