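import Cfsg.Agent.RealVector.Heis
import Mathlib.RepresentationTheory.Maschke
import Mathlib.LinearAlgebra.Dual.Lemmas
import Mathlib.LinearAlgebra.Matrix.SesquilinearForm

/-!
# Good functions for self-dual coprime modules

`exists_good`: a coprime module with an invariant nondegenerate bilinear form has a good function.
The module is cut along invariant subspaces whose two orthogonals agree; the indecomposable pieces
are symmetric (Gauss sums), alternating (Weil characters), hyperbolic or trivial.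
-/

set_option autoImplicit false

namespace CfsgLib.RealVector

open Cfsg CfsgLib.Chars
open scoped ComplexConjugate

universe u v w

variable {C : Type u} [Group C] [Fintype C] {p : ℕ} [Fact p.Prime]

section

variable {U : Type v} [AddCommGroup U] [Module (ZMod p) U]

/-- An invariant subspace. -/
def IsInv (ρ : Representation (ZMod p) C U) (W : Submodule (ZMod p) U) : Prop :=
  ∀ h, ∀ x ∈ W, ρ h x ∈ W

/-- The restriction to an invariant subspace. -/
def resRep (ρ : Representation (ZMod p) C U) (W : Submodule (ZMod p) U) (hW : IsInv ρ W) :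
    Representation (ZMod p) C W where
  toFun h := (ρ h).restrict (hW h)
  map_one' := by ext x; simp [LinearMap.restrict_apply]
  map_mul' a b := by ext x; simp [LinearMap.restrict_apply]

omit [Fintype C] in
theorem resRep_apply (ρ : Representation (ZMod p) C U) (W : Submodule (ZMod p) U) (hW : IsInv ρ W)
    (h : C) (x : W) : ((resRep ρ W hW h x : W) : U) = ρ h x := rfl

/-- An invariant complement, by averaging. -/
theorem exists_inv_compl (hC : ¬ p ∣ Nat.card C) (ρ : Representation (ZMod p) C U)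
    (W : Submodule (ZMod p) U) (hW : IsInv ρ W) :
    ∃ Q : Submodule (ZMod p) U, IsInv ρ Q ∧ IsCompl W Q := by
  classical
  obtain ⟨π₀, hπ₀⟩ := W.subtype.exists_leftInverse_of_injective W.ker_subtype
  have hπ : ∀ x ∈ W, (π₀ x : U) = x := fun x hx =>
    congrArg Subtype.val (LinearMap.congr_fun hπ₀ ⟨x, hx⟩)
  let f : U →ₗ[ZMod p] U := (Nat.card C : ZMod p)⁻¹ •
    ∑ h : C, ρ h ∘ₗ (W.subtype ∘ₗ π₀) ∘ₗ ρ h⁻¹
  have hc : (Nat.card C : ZMod p) ≠ 0 := fun h0 => hC ((ZMod.natCast_eq_zero_iff _ _).1 h0)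
  have hfapp : ∀ x, f x = (Nat.card C : ZMod p)⁻¹ • ∑ h : C, ρ h (π₀ (ρ h⁻¹ x) : U) := fun x => by
    simp [f]
  have hfW : ∀ x ∈ W, f x = x := by
    intro x hx
    rw [hfapp, Finset.sum_congr rfl (g := fun _ => x) fun h _ => by
      rw [hπ _ (hW _ x hx), ← Module.End.mul_apply, ← map_mul, mul_inv_cancel, map_one,
        Module.End.one_apply], Finset.sum_const, Finset.card_univ, ← Nat.card_eq_fintype_card,
      ← Nat.cast_smul_eq_nsmul (ZMod p), smul_smul, inv_mul_cancel₀ hc, one_smul]
  have hfmem : ∀ x, f x ∈ W := fun x => by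
    rw [hfapp]
    exact W.smul_mem _ (sum_mem fun h _ => hW h _ (π₀ _).2)
  have hfcomm : ∀ g x, f (ρ g x) = ρ g (f x) := by
    intro g x
    rw [hfapp, hfapp, map_smul, map_sum, ← Equiv.sum_comp (Equiv.mulLeft g)]
    congr 1
    refine Finset.sum_congr rfl fun h _ => ?_
    simp only [Equiv.coe_mulLeft, mul_inv_rev, map_mul, Module.End.mul_apply]
    rw [← Module.End.mul_apply (ρ g⁻¹), ← map_mul, inv_mul_cancel, map_one, Module.End.one_apply]
  refine ⟨LinearMap.ker f, fun g x hx => ?_, ?_⟩
  · rw [LinearMap.mem_ker] at hx ⊢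
    rw [hfcomm, hx, map_zero]
  · constructor
    · rw [Submodule.disjoint_def]
      intro x hx hx'
      rwa [LinearMap.mem_ker, hfW x hx] at hx'
    · rw [codisjoint_iff, eq_top_iff]
      intro x _
      refine Submodule.mem_sup.2 ⟨f x, hfmem x, x - f x, ?_, add_sub_cancel _ _⟩
      rw [LinearMap.mem_ker, map_sub, hfW _ (hfmem x), sub_self]

variable [Finite U]

omit [Fintype C] in
/-- Fixed points of a product. -/
theorem fixCard_of_equiv {U₁ : Type w} [AddCommGroup U₁] [Module (ZMod p) U₁]
    {U₂ : Type w} [AddCommGroup U₂] [Module (ZMod p) U₂]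
    (ρ : Representation (ZMod p) C U) (ρ₁ : Representation (ZMod p) C U₁)
    (ρ₂ : Representation (ZMod p) C U₂) (e : (U₁ × U₂) ≃ₗ[ZMod p] U)
    (he : ∀ h a b, e (ρ₁ h a, ρ₂ h b) = ρ h (e (a, b))) (h : C) :
    fixCard ρ h = fixCard ρ₁ h * fixCard ρ₂ h := by
  rw [fixCard, fixCard, fixCard, ← Nat.card_prod]
  refine (Nat.card_eq_of_bijective (fun z : fixSub ρ₁ h × fixSub ρ₂ h =>
    (⟨e ((z.1 : U₁), (z.2 : U₂)), ?_⟩ : fixSub ρ h)) ⟨?_, ?_⟩).symm
  · rw [mem_fixSub, ← he, mem_fixSub.1 z.1.2, mem_fixSub.1 z.2.2]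
  · intro a b hab
    have := e.injective (congrArg Subtype.val hab)
    simp only [Prod.mk.injEq] at this
    exact Prod.ext (Subtype.ext this.1) (Subtype.ext this.2)
  · rintro ⟨y, hy⟩
    obtain ⟨⟨a, b⟩, rfl⟩ := e.surjective y
    rw [mem_fixSub, ← he, e.injective.eq_iff, Prod.mk.injEq] at hy
    exact ⟨(⟨a, mem_fixSub.2 hy.1⟩, ⟨b, mem_fixSub.2 hy.2⟩), rfl⟩

variable (B : U →ₗ[ZMod p] U →ₗ[ZMod p] ZMod p)

/-- The right orthogonal. -/
def rperp (W : Submodule (ZMod p) U) : Submodule (ZMod p) U :=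
  W.dualAnnihilator.comap B.flip

omit [Fintype C] [Finite U] in
theorem mem_rperp {W : Submodule (ZMod p) U} {y : U} :
    y ∈ rperp B W ↔ ∀ x ∈ W, B x y = 0 := by
  simp [rperp, Submodule.mem_dualAnnihilator]

omit [Fintype C] [Finite U] in
theorem mem_rperp_flip {W : Submodule (ZMod p) U} {x : U} :
    x ∈ rperp B.flip W ↔ ∀ y ∈ W, B x y = 0 := by
  rw [mem_rperp]; rfl

variable {B}

omit [Fintype C] in
theorem finrank_rperp (hnd : ∀ y, (∀ x, B x y = 0) → y = 0) (W : Submodule (ZMod p) U) :
    Module.finrank (ZMod p) (rperp B W) + Module.finrank (ZMod p) W =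
      Module.finrank (ZMod p) U := by
  have hinj : Function.Injective B.flip := by
    rw [← LinearMap.ker_eq_bot, eq_bot_iff]
    intro y hy
    exact hnd y fun x => LinearMap.congr_fun (LinearMap.mem_ker.1 hy) x
  let e := LinearEquiv.ofBijective B.flip ⟨hinj, (LinearMap.injective_iff_surjective_of_finrank_eq_finrank
    Subspace.dual_finrank_eq.symm).1 hinj⟩
  rw [← Subspace.finrank_add_finrank_dualAnnihilator_eq W, add_comm]
  congr 1
  have : rperp B W = W.dualAnnihilator.map e.symm.toLinearMap :=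
    (Submodule.map_equiv_eq_comap_symm e.symm W.dualAnnihilator).symm
  rw [this, LinearEquiv.finrank_map_eq]

omit [Fintype C] in
/-- One-sided nondegeneracy is enough. -/
theorem flip_nondeg (hnd : ∀ x, (∀ y, B x y = 0) → x = 0) :
    ∀ y, (∀ x, B x y = 0) → y = 0 := by
  intro y hy
  have hinj : Function.Injective B := by
    rw [← LinearMap.ker_eq_bot, eq_bot_iff]
    intro x hx
    exact hnd x fun z => LinearMap.congr_fun (LinearMap.mem_ker.1 hx) z
  have hsurj : Function.Surjective B :=
    (LinearMap.injective_iff_surjective_of_finrank_eq_finrank Subspace.dual_finrank_eq.symm).1 hinj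
  refine (Module.forall_dual_apply_eq_zero_iff (ZMod p) y).1 fun φ => ?_
  obtain ⟨x, rfl⟩ := hsurj φ
  exact hy x

omit [Fintype C] in
theorem rperp_flip_rperp (hnd : ∀ x, (∀ y, B x y = 0) → x = 0) (W : Submodule (ZMod p) U) :
    rperp B.flip (rperp B W) = W := by
  have h1 := finrank_rperp (flip_nondeg hnd) W
  have h2 := finrank_rperp (B := B.flip) hnd (rperp B W)
  refine (Submodule.eq_of_le_of_finrank_eq ?_ (by omega)).symm
  intro x hx
  rw [mem_rperp_flip]
  exact fun y hy => (mem_rperp B).1 hy x hx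

omit [Fintype C] in
theorem isInv_rperp {ρ : Representation (ZMod p) C U} (hinv : ∀ h x y, B (ρ h x) (ρ h y) = B x y)
    {W : Submodule (ZMod p) U} (hW : IsInv ρ W) : IsInv ρ (rperp B W) := by
  intro h y hy
  rw [mem_rperp] at hy ⊢
  intro x hx
  have := hinv h (ρ h⁻¹ x) y
  rw [← Module.End.mul_apply, ← map_mul, mul_inv_cancel, map_one, Module.End.one_apply] at this
  rw [this]
  exact hy _ (hW _ x hx)

/-- Paired submodules have equally many fixed points. -/
theorem fixCard_le_of_pairing (hC : ¬ p ∣ Nat.card C) {ρ : Representation (ZMod p) C U}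
    (hinv : ∀ h x y, B (ρ h x) (ρ h y) = B x y) {R T : Submodule (ZMod p) U} (hR : IsInv ρ R)
    (hT : IsInv ρ T) (hp : ∀ r ∈ R, (∀ t ∈ T, B r t = 0) → r = 0) (h : C) :
    fixCard (resRep ρ R hR) h ≤ fixCard (resRep ρ T hT) h := by
  let f : fixSub (resRep ρ R hR) h →ₗ[ZMod p] Module.Dual (ZMod p) (fixSub (resRep ρ T hT) h) :=
    ((T.subtype ∘ₗ (fixSub (resRep ρ T hT) h).subtype).dualMap) ∘ₗ B ∘ₗ
      (R.subtype ∘ₗ (fixSub (resRep ρ R hR) h).subtype)
  have hf : Function.Injective f := by
    rw [← LinearMap.ker_eq_bot, eq_bot_iff]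
    intro r hr
    rw [Submodule.mem_bot]
    apply Subtype.ext
    apply Subtype.ext
    refine hp _ (r : R).2 fun t ht => ?_
    have hfix : ρ h ((r : R) : U) = ((r : R) : U) :=
      congrArg Subtype.val (mem_fixSub.1 r.2)
    obtain ⟨a, ha, b, ⟨c, rfl⟩, hab⟩ := Submodule.mem_sup.1
      ((isCompl_fixSub_range hC (resRep ρ T hT) h).sup_eq_top ▸ Submodule.mem_top :
        (⟨t, ht⟩ : T) ∈ _)
    have e1 : B ((r : R) : U) (a : U) = 0 :=
      LinearMap.congr_fun (LinearMap.mem_ker.1 hr) ⟨a, ha⟩
    have hab' : t = (a : U) + (ρ h (c : U) - (c : U)) := (congrArg Subtype.val hab).symm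
    rw [hab', map_add, map_sub, e1, zero_add, sub_eq_zero]
    conv_lhs => rw [← hfix]
    exact hinv h _ _
  have hd := LinearMap.finrank_le_finrank_of_injective hf
  rw [Subspace.dual_finrank_eq] at hd
  rw [fixCard, fixCard, Module.natCard_eq_pow_finrank (K := ZMod p),
    Module.natCard_eq_pow_finrank (K := ZMod p) (V := fixSub (resRep ρ T hT) h)]
  exact Nat.pow_le_pow_right Nat.card_pos hd

end

/-- Character values lie in the cyclotomic field. -/
theorem char_mem_adjoin {ζ : ℂ} {N : ℕ} (hN : 0 < N) (hζ : IsPrimitiveRoot ζ N)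
    (hCN : Nat.card C ∣ N) {χ : C → ℂ} (hχ : IsCharacter C χ) (h : C) :
    χ h ∈ Algebra.adjoin ℚ ({ζ} : Set ℂ) := by
  obtain ⟨n, σ, rfl⟩ := hχ
  obtain ⟨c, hc⟩ := hCN
  obtain ⟨R, hR⟩ := Apps.exists_char_poly σ (hζ.pow hN (a := c) (by rw [hc, mul_comm])) h
  have := hR 1
  rw [pow_one, pow_one] at this
  rw [this, Polynomial.aeval_eq_sum_range]
  exact sum_mem fun i _ => zsmul_mem (pow_mem (pow_mem (Algebra.self_mem_adjoin_singleton ℚ ζ) c) i) _

/-- The good function of a Weil character. -/
theorem exists_good_alternating {U : Type v} [AddCommGroup U] [Module (ZMod p) U] [Finite U]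
    {ζ : ℂ} {N : ℕ} (hN : 0 < N) (hζ : IsPrimitiveRoot ζ N) (hCN : Nat.card C ∣ N)
    {M : Ideal AlgInt} (hM : IsPModular p M) (hC : ¬ p ∣ Nat.card C)
    (ρ : Representation (ZMod p) C U) (B : U →ₗ[ZMod p] U →ₗ[ZMod p] ZMod p)
    (hinv : ∀ h x y, B (ρ h x) (ρ h y) = B x y) (halt : ∀ a, B a a = 0)
    (hnd : ∀ x, (∀ y, B x y = 0) → x = 0) (hp2 : p ≠ 2) : ∃ δ, IsGood ζ M ρ δ := by
  obtain ⟨n, Ψ, hΨ, hn, h1, habs, hd⟩ := exists_weil hC hinv halt hnd hp2
  choose d w hdd hw hwe using hd
  have hd0 : ∀ h, d h ≠ 0 := fun h h0 => by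
    have := hdd h
    rw [h0, zero_mul] at this
    exact (fixCard_pos ρ h).ne this
  have hdn : ∀ h, d h ∣ n := fun h => by
    refine (Nat.pow_dvd_pow_iff two_ne_zero).1 ?_
    rw [sq, sq, hn, hdd]
    exact fixCard_dvd ρ h
  refine ⟨fun h => ((n / d h : ℕ) : ℂ) * conj (w h), ?_⟩
  have hval : ∀ h, ((n / d h : ℕ) : ℂ) * conj (w h) = (n : ℂ) * Ψ h⁻¹ / (fixCard ρ h : ℂ) := by
    intro h
    rw [← conj_eq_map_inv hΨ, hwe, map_mul, Complex.conj_natCast, ← hdd, Nat.cast_mul,
      Nat.cast_div (hdn h) (Nat.cast_ne_zero.2 (hd0 h))]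
    field_simp [Nat.cast_ne_zero.2 (hd0 h)]
  have hgc : IsGC fun h => ((n / d h : ℕ) : ℂ) * conj (w h) := by
    refine isGC_of_fixCard_mul hC ρ (fun h => (isIntegral_natCast _).mul (map_isIntegral_int (starRingEnd ℂ) (hw h)))
      (g := (n : ℂ) • fun h => Ψ h⁻¹) ((IsGC.of_isCharacter (isCharacter_dual hΨ)).smul (isIntegral_natCast n))
      fun h => ?_
    rw [hval, mul_div_cancel₀ _ (Nat.cast_ne_zero.2 (fixCard_pos ρ h).ne')]
    rfl
  refine ⟨hgc, fun h => ?_, fun h => ?_, ?_, fun h hh => ?_⟩
  · rw [hval, div_eq_mul_inv]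
    refine mul_mem (mul_mem (natCast_mem _ n) (char_mem_adjoin hN hζ hCN hΨ _)) ?_
    rw [show ((fixCard ρ h : ℂ))⁻¹ = algebraMap ℚ ℂ ((fixCard ρ h : ℚ)⁻¹) by simp]
    exact Subalgebra.algebraMap_mem _ _
  · rw [norm_mul, Complex.norm_conj, Complex.norm_natCast, mul_pow]
    have e1 := habs h
    rw [Complex.mul_conj', hwe, norm_mul, Complex.norm_natCast] at e1
    have e2 : ((d h : ℝ) * ‖w h‖) ^ 2 = (fixCard ρ h : ℝ) := by exact_mod_cast e1
    rw [← hn, Nat.cast_mul, Nat.cast_div (hdn h) (Nat.cast_ne_zero.2 (hd0 h)), ← e2]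
    have e3 : ((d h : ℝ) * ‖w h‖) ^ 2 = (d h : ℝ) * d h := by
      rw [e2, ← hdd]; push_cast; rfl
    have hdR : (d h : ℝ) ≠ 0 := Nat.cast_ne_zero.2 (hd0 h)
    have e4 : ‖w h‖ ^ 2 = 1 := by
      refine mul_left_cancel₀ (pow_ne_zero 2 hdR) ?_
      rw [← mul_pow, e3]
      ring
    rw [mul_pow (d h : ℝ), e4]
    field_simp
  · show ((n / d 1 : ℕ) : ℂ) * conj (w 1) = 1
    rw [hval, inv_one, h1, fixCard_one, ← hn, Nat.cast_mul, div_self]
    have hn0 : (n : ℂ) ≠ 0 := Nat.cast_ne_zero.2 fun h0 => by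
      rw [h0, zero_mul] at hn
      exact Nat.card_pos.ne hn
    exact mul_ne_zero hn0 hn0
  · refine (MemM.natCast_of_dvd hM ?_).mul_right (map_isIntegral_int (starRingEnd ℂ) (hw h))
    obtain ⟨k, hk⟩ := exists_card_eq_pow (⊤ : Submodule (ZMod p) U)
    rw [Nat.card_congr Submodule.topEquiv.toEquiv] at hk
    have hdvd : n / d h ∣ p ^ k := by
      rw [← hk, ← hn]
      exact (Nat.div_dvd_of_dvd (hdn h)).mul_right n
    obtain ⟨i, -, hi⟩ := (Nat.dvd_prime_pow (Fact.out : p.Prime)).1 hdvd
    rcases Nat.eq_zero_or_pos i with rfl | hi0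
    · exfalso
      apply hh
      have : d h = n := by
        have := Nat.div_mul_cancel (hdn h)
        rw [hi, pow_zero, one_mul] at this
        exact this
      rw [← hdd, this, hn]
    · rw [hi]; exact dvd_pow_self p hi0.ne'

/-- The good function of a hyperbolic module. -/
theorem exists_good_hyperbolic {U : Type v} [AddCommGroup U] [Module (ZMod p) U] [Finite U]
    {R : Type w} [AddCommGroup R] [Module (ZMod p) R] [Finite R]
    {ζ : ℂ} {M : Ideal AlgInt} (hM : IsPModular p M) (hC : ¬ p ∣ Nat.card C)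
    (ρ : Representation (ZMod p) C U) (ρR : Representation (ZMod p) C R)
    (hcard : Nat.card U = Nat.card R * Nat.card R)
    (hfix : ∀ h, fixCard ρ h = fixCard ρR h * fixCard ρR h) :
    IsGood ζ M ρ fun h => ((Nat.card R / fixCard ρR h : ℕ) : ℂ) := by
  have hgc : IsGC fun h => ((Nat.card R / fixCard ρR h : ℕ) : ℂ) := by
    refine isGC_of_fixCard_mul hC ρR (fun h => isIntegral_natCast _)
      (IsGC.one.smul (isIntegral_natCast (Nat.card R))) fun h => ?_
    rw [← Nat.cast_mul, Nat.mul_div_cancel' (fixCard_dvd ρR h)]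
    simp
  refine ⟨hgc, fun h => natCast_mem _ _, fun h => ?_, ?_, fun h hh => ?_⟩
  · rw [Complex.norm_natCast, hfix, hcard]
    have := Nat.div_mul_cancel (fixCard_dvd ρR h)
    norm_cast
    rw [sq]
    calc _ = (Nat.card R / fixCard ρR h * fixCard ρR h) *
          (Nat.card R / fixCard ρR h * fixCard ρR h) := by ring
      _ = _ := by rw [this]
  · rw [fixCard_one, Nat.div_self Nat.card_pos, Nat.cast_one]
  · refine MemM.natCast_of_dvd hM ?_
    obtain ⟨k, hk⟩ := exists_card_eq_pow (⊤ : Submodule (ZMod p) R)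
    rw [Nat.card_congr Submodule.topEquiv.toEquiv] at hk
    obtain ⟨i, -, hi⟩ := (Nat.dvd_prime_pow (Fact.out : p.Prime)).1
      (hk ▸ Nat.div_dvd_of_dvd (fixCard_dvd ρR h))
    rcases Nat.eq_zero_or_pos i with rfl | hi0
    · exfalso
      apply hh
      have := Nat.div_mul_cancel (fixCard_dvd ρR h)
      rw [hk] at this
      rw [hi, pow_zero, one_mul] at this
      rw [hfix, hcard, this, hk]
    · rw [hk, hi]; exact dvd_pow_self p hi0.ne'

/-- Every self-dual coprime module has a good function. -/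
theorem exists_good {ζ : ℂ} {N : ℕ} (hN : 0 < N) (hζ : IsPrimitiveRoot ζ N)
    (hCN : Nat.card C ∣ N) (hpN : p ∣ N) {M : Ideal AlgInt} (hM : IsPModular p M)
    (hC : ¬ p ∣ Nat.card C) :
    ∀ (k : ℕ) (U : Type v) [AddCommGroup U] [Module (ZMod p) U] [Finite U]
      (ρ : Representation (ZMod p) C U) (B : U →ₗ[ZMod p] U →ₗ[ZMod p] ZMod p),
      Nat.card U ≤ k → (∀ h x y, B (ρ h x) (ρ h y) = B x y) →
      (∀ x, (∀ y, B x y = 0) → x = 0) → ∃ δ, IsGood ζ M ρ δ := by
  classical
  -- an additive character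
  obtain ⟨c, hc⟩ := hpN
  have hω : IsPrimitiveRoot (ζ ^ c) p := hζ.pow hN (by rw [hc, mul_comm])
  let ψ : AddChar (ZMod p) ℂ := AddChar.zmodChar p hω.pow_eq_one
  have hψ : ∀ a, ψ a = 1 → a = 0 := fun a ha => by
    rw [AddChar.zmodChar_apply] at ha
    have := orderOf_dvd_of_pow_eq_one ha
    rw [← hω.eq_orderOf] at this
    rw [← ZMod.natCast_zmod_val a, ZMod.natCast_eq_zero_iff]
    exact this
  have hψm : ∀ a, ψ a ∈ Algebra.adjoin ℚ ({ζ} : Set ℂ) := fun a => by
    rw [AddChar.zmodChar_apply]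
    exact pow_mem (pow_mem (Algebra.self_mem_adjoin_singleton ℚ ζ) c) _
  intro k
  induction k with
  | zero => intro U _ _ _ ρ B hk; exact absurd hk (Nat.not_le.2 Nat.card_pos)
  | succ k ih =>
    intro U _ _ _ ρ B hk hinv hnd
    have hnd' := flip_nondeg hnd
    -- recursion on a nondegenerate invariant subspace
    have hsub : ∀ (W : Submodule (ZMod p) U) (hW : IsInv ρ W), W ≠ ⊤ →
        (∀ x ∈ W, (∀ y ∈ W, B x y = 0) → x = 0) → ∃ δ, IsGood ζ M (resRep ρ W hW) δ := by
      intro W hW hne hndW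
      refine ih W _ ((B.compl₂ W.subtype).comp W.subtype) ?_ (fun h x y => hinv h x y)
        (fun x hx => Subtype.ext (hndW x x.2 fun y hy => hx ⟨y, hy⟩))
      have hlt : Nat.card W < Nat.card U := by
        refine lt_of_le_of_ne (Nat.card_le_card_of_injective _ Subtype.val_injective) fun heq => hne ?_
        refine Submodule.eq_top_iff'.2 fun x => ?_
        obtain ⟨y, rfl⟩ := ((Nat.bijective_iff_injective_and_card (Subtype.val : W → U)).2
          ⟨Subtype.val_injective, heq⟩).2 x
        exact y.2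
      omega
    by_cases hcut : ∃ W : Submodule (ZMod p) U, IsInv ρ W ∧ W ≠ ⊥ ∧ W ≠ ⊤ ∧
        rperp B W = rperp B.flip W
    · obtain ⟨W, hW, hW0, hW1, hbal⟩ := hcut
      have hWi := isInv_rperp hinv hW
      by_cases hR0 : W ⊓ rperp B W = ⊥
      · -- orthogonal sum
        have hcompl : IsCompl W (rperp B W) := by
          refine (Submodule.isCompl_iff_disjoint _ _ ?_).2 (disjoint_iff.2 hR0)
          rw [add_comm]
          exact (finrank_rperp hnd' W).ge
        obtain ⟨δ₁, hδ₁⟩ := hsub W hW hW1 fun x hx hxy => by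
          have : x ∈ W ⊓ rperp B W := ⟨hx, hbal ▸ (mem_rperp_flip B).2 hxy⟩
          rwa [hR0, Submodule.mem_bot] at this
        obtain ⟨δ₂, hδ₂⟩ := hsub (rperp B W) hWi (fun h => hW0 (by
            rw [h, inf_top_eq] at hR0; exact hR0)) fun x hx hxy => by
          refine hnd x fun y => ?_
          obtain ⟨a, ha, b, hb, rfl⟩ := Submodule.mem_sup.1
            (hcompl.sup_eq_top ▸ Submodule.mem_top : y ∈ _)
          rw [map_add, hxy b hb, add_zero]
          exact (mem_rperp_flip B).1 (hbal ▸ hx) a ha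
        let e := Submodule.prodEquivOfIsCompl _ _ hcompl
        refine ⟨δ₁ * δ₂, hδ₁.mul hδ₂ ?_ fun h => fixCard_of_equiv ρ _ _ e (fun h a b => ?_) h⟩
        · rw [← Nat.card_prod]; exact (Nat.card_congr e.toEquiv).symm
        · simp [e, resRep_apply]
      · -- isotropic subspace
        set R := W ⊓ rperp B W with hRdef
        have hR : IsInv ρ R := fun h x hx => ⟨hW h x hx.1, hWi h x hx.2⟩
        set S := rperp B R with hSdef
        have hS : IsInv ρ S := isInv_rperp hinv hR
        have hle : W ⊔ rperp B W ≤ S ∧ W ⊔ rperp B W ≤ rperp B.flip R := by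
          refine ⟨sup_le (fun y hy => (mem_rperp B).2 fun x hx => ?_) (fun y hy => ?_),
            sup_le (fun x hx => (mem_rperp_flip B).2 fun y hy => ?_) (fun x hx => ?_)⟩
          · exact (mem_rperp_flip B).1 (hbal ▸ hx.2) y hy
          · exact (mem_rperp B).2 fun x hx => (mem_rperp B).1 hy x hx.1
          · exact (mem_rperp B).1 hy.2 x hx
          · exact (mem_rperp_flip B).2 fun y hy => (mem_rperp_flip B).1 (hbal ▸ hx) y hy.1
        have hdim := Submodule.finrank_sup_add_finrank_inf_eq W (rperp B W)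
        rw [← hRdef] at hdim
        have hd1 := finrank_rperp hnd' W
        have hd2 := finrank_rperp hnd' R
        have hd3 := finrank_rperp (B := B.flip) hnd R
        rw [← hSdef] at hd2
        have heq1 := Submodule.eq_of_le_of_finrank_eq hle.1 (by omega)
        have heq2 := Submodule.eq_of_le_of_finrank_eq hle.2 (by omega)
        have hSflip : S = rperp B.flip R := heq1.symm.trans heq2
        have hRS : R ≤ S := le_trans inf_le_left (le_trans le_sup_left hle.1)
        have hlpS : rperp B.flip S = R := rperp_flip_rperp hnd R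
        obtain ⟨Q, hQi, hQ⟩ := exists_inv_compl hC ρ R hR
        set K := S ⊓ Q with hKdef
        have hK : IsInv ρ K := fun h x hx => ⟨hS h x hx.1, hQi h x hx.2⟩
        obtain ⟨T, hT, hST⟩ := exists_inv_compl hC ρ S hS
        have hKtop : K ≠ ⊤ := fun h => hR0 (by
          have hQtop : Q = ⊤ := eq_top_iff.2 (h ▸ inf_le_right)
          exact top_disjoint.1 (hQtop ▸ hQ.disjoint).symm)
        have hRK : R ⊔ K = S := by
          rw [hKdef, inf_comm, ← sup_inf_assoc_of_le Q hRS, hQ.sup_eq_top, top_inf_eq]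
        obtain ⟨δK, hδK⟩ := hsub K hK hKtop fun x hx hxy => by
          have hxR : x ∈ R := by
            rw [← hlpS, mem_rperp_flip]
            intro y hy
            rw [← hRK] at hy
            obtain ⟨a, ha, b, hb, rfl⟩ := Submodule.mem_sup.1 hy
            rw [map_add, hxy b hb, add_zero]
            exact (mem_rperp_flip B).1 (hSflip ▸ hx.1) a ha
          exact (Submodule.disjoint_def.1 hQ.disjoint) x hxR hx.2
        have hsplit : ∀ x : U, ∃ s ∈ S, ∃ t ∈ T, s + t = x := fun x =>
          Submodule.mem_sup.1 (hST.sup_eq_top ▸ Submodule.mem_top : x ∈ _)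
        have hpair1 : ∀ r ∈ R, (∀ t ∈ T, B r t = 0) → r = 0 := by
          intro r hr hrt
          refine hnd r fun y => ?_
          obtain ⟨s, hs, t, ht, rfl⟩ := hsplit y
          rw [map_add, hrt t ht, add_zero]
          exact (mem_rperp B).1 hs r hr
        have hpair2 : ∀ t ∈ T, (∀ r ∈ R, B r t = 0) → t = 0 := fun t ht htr =>
          (Submodule.disjoint_def.1 hST.disjoint) t ((mem_rperp B).2 htr) ht
        have hfixT : ∀ h, fixCard (resRep ρ T hT) h = fixCard (resRep ρ R hR) h := fun h =>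
          le_antisymm (fixCard_le_of_pairing (B := B.flip) hC (fun h x y => hinv h y x) hT hR hpair2 h)
            (fixCard_le_of_pairing hC hinv hR hT hpair1 h)
        have hcardT : Nat.card T = Nat.card R := by
          have := hfixT 1
          rwa [fixCard_one, fixCard_one] at this
        -- the hyperbolic part
        let ρH : Representation (ZMod p) C (R × T) :=
          { toFun := fun h => (resRep ρ R hR h).prodMap (resRep ρ T hT h)
            map_one' := by rw [map_one, map_one]; rfl
            map_mul' := fun a b => by rw [map_mul, map_mul]; rfl }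
        have hfixH : ∀ h, fixCard ρH h = fixCard (resRep ρ R hR) h * fixCard (resRep ρ R hR) h := by
          intro h
          rw [fixCard_of_equiv ρH (resRep ρ R hR) (resRep ρ T hT) (LinearEquiv.refl _ _)
            (fun h a b => rfl) h, hfixT]
        have hH := exists_good_hyperbolic (ζ := ζ) hM hC ρH (resRep ρ R hR)
          (by rw [Nat.card_prod, hcardT]) hfixH
        let g : ((R × T) × K) →ₗ[ZMod p] U :=
          ((R.subtype.coprod T.subtype).coprod K.subtype)
        have hg : Function.Bijective g := by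
          constructor
          · rw [← LinearMap.ker_eq_bot, eq_bot_iff]
            rintro ⟨⟨⟨a, ha⟩, ⟨b, hb⟩⟩, ⟨c, hc⟩⟩ hz
            have hz' : a + b + c = 0 := by simpa [g] using hz
            have hb0 : b = 0 := (Submodule.disjoint_def.1 hST.disjoint) b (by
              have : b = -(a + c) := by rw [eq_neg_iff_add_eq_zero]; rw [← hz']; abel
              rw [this]
              exact S.neg_mem (S.add_mem (hRS ha) hc.1)) hb
            subst hb0
            rw [add_zero] at hz'
            have ha0 : a = 0 := (Submodule.disjoint_def.1 hQ.disjoint) a ha (by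
              rw [eq_neg_of_add_eq_zero_left hz']
              exact Q.neg_mem hc.2)
            subst ha0
            rw [zero_add] at hz'
            subst hz'
            rfl
          · intro x
            obtain ⟨s, hs, t, ht, rfl⟩ := hsplit x
            rw [← hRK] at hs
            obtain ⟨a, ha, c, hc, rfl⟩ := Submodule.mem_sup.1 hs
            exact ⟨((⟨a, ha⟩, ⟨t, ht⟩), ⟨c, hc⟩), by simp [g]; abel⟩
        let e := LinearEquiv.ofBijective g hg
        refine ⟨_ * δK, hH.mul hδK ?_ fun h => ?_⟩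
        · rw [← Nat.card_prod]; exact (Nat.card_congr e.toEquiv).symm
        · refine fixCard_of_equiv ρ ρH (resRep ρ K hK) e (fun h a b => ?_) h
          simp [e, g, ρH, resRep_apply]
    -- no proper balanced subspace
    push_neg at hcut
    let KS : Submodule (ZMod p) U := LinearMap.ker (B + B.flip)
    have hKS : ∀ x, x ∈ KS ↔ ∀ y, B x y + B y x = 0 := fun x => by
      simp [KS, LinearMap.ext_iff]
    have hKSi : IsInv ρ KS := by
      intro h x hx
      rw [hKS] at hx ⊢
      intro y
      have e : ρ h (ρ h⁻¹ y) = y := by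
        rw [← Module.End.mul_apply, ← map_mul, mul_inv_cancel, map_one, Module.End.one_apply]
      rw [← e, hinv, hinv]
      exact hx _
    by_cases hbot : KS = ⊥
    · exact ⟨_, isGood_gauss hM hC ρ B hinv
        (fun x hx => by have := (hKS x).2 hx; rwa [hbot, Submodule.mem_bot] at this) ψ hψ hψm⟩
    have htop : KS = ⊤ := by
      by_contra hne
      refine hcut KS hKSi hbot hne ?_
      ext y
      rw [mem_rperp, mem_rperp_flip]
      constructor
      · intro hy x hx
        have := (hKS x).1 hx y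
        rwa [hy x hx, zero_add] at this
      · intro hy x hx
        have := (hKS x).1 hx y
        rwa [hy x hx, add_zero] at this
    have hskew : ∀ x y, B x y + B y x = 0 := fun x => (hKS x).1 (htop ▸ Submodule.mem_top)
    by_cases hp2 : p = 2
    swap
    · refine exists_good_alternating hN hζ hCN hM hC ρ B hinv (fun a => ?_) hnd hp2
      have h := hskew a a
      rw [← two_mul] at h
      refine (mul_eq_zero.1 h).resolve_left fun h2 => hp2 ?_
      have h2' : ((2 : ℕ) : ZMod p) = 0 := by exact_mod_cast h2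
      exact (Nat.prime_dvd_prime_iff_eq (Fact.out : p.Prime) Nat.prime_two).1
        ((ZMod.natCast_eq_zero_iff _ _).1 h2')
    -- characteristic two
    subst hp2
    have hdiag : ∀ x y, B (x + y) (x + y) = B x x + B y y := fun x y => by
      simp only [map_add, LinearMap.add_apply]
      linear_combination hskew x y
    let L : Submodule (ZMod 2) U :=
      { carrier := {x | B x x = 0}
        add_mem' := fun {a b} (ha : B a a = 0) (hb : B b b = 0) => by
          show B (a + b) (a + b) = 0
          rw [hdiag, ha, hb, add_zero]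
        zero_mem' := by simp
        smul_mem' := fun c x (hx : B x x = 0) => by
          show B (c • x) (c • x) = 0
          simp [hx] }
    have hLi : IsInv ρ L := fun h x (hx : B x x = 0) => show B _ _ = 0 by rw [hinv]; exact hx
    by_cases hL0 : L = ⊥
    · refine ⟨_, isGood_trivial ρ fun g x => ?_⟩
      have : ρ g x - x ∈ L := by
        show B _ _ = 0
        rw [sub_eq_add_neg, hdiag, map_neg, map_neg, LinearMap.neg_apply, neg_neg, hinv,
          CharTwo.add_self_eq_zero]
      rw [hL0, Submodule.mem_bot, sub_eq_zero] at this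
      exact this
    have hL : L = ⊤ := by
      by_contra hne
      refine hcut L hLi hL0 hne ?_
      ext y
      rw [mem_rperp, mem_rperp_flip]
      have hsymm : ∀ a b, B a b = B b a := fun a b => by
        have := hskew a b
        rwa [CharTwo.add_eq_zero] at this
      exact ⟨fun hy x hx => by rw [hsymm]; exact hy x hx, fun hy x hx => by rw [hsymm]; exact hy x hx⟩
    have halt : ∀ x, B x x = 0 := fun x => (hL ▸ Submodule.mem_top : x ∈ L)
    -- a quadratic form
    let b := Module.finBasis (ZMod 2) U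
    let A : Matrix (Fin (Module.finrank (ZMod 2) U)) (Fin (Module.finrank (ZMod 2) U)) (ZMod 2) :=
      Matrix.of fun i j => if i < j then B (b i) (b j) else 0
    let B₁ : U →ₗ[ZMod 2] U →ₗ[ZMod 2] ZMod 2 := Matrix.toLinearMap₂ b b A
    have hB₁ : B₁ + B₁.flip = B := by
      refine b.ext fun i => b.ext fun j => ?_
      simp only [LinearMap.add_apply, LinearMap.flip_apply, B₁, Matrix.toLinearMap₂_apply_basis,
        A, Matrix.of_apply]
      rcases lt_trichotomy i j with hlt | rfl | hgt
      · rw [if_pos hlt, if_neg hlt.asymm, add_zero]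
      · rw [if_neg (lt_irrefl _), add_zero, halt]
      · rw [if_neg hgt.asymm, if_pos hgt, zero_add]
        have := hskew (b i) (b j)
        rw [CharTwo.add_eq_zero] at this
        exact this.symm
    let B₂ : U →ₗ[ZMod 2] U →ₗ[ZMod 2] ZMod 2 := ∑ g : C, (B₁.compl₂ (ρ g)).comp (ρ g)
    have hB₂ : ∀ x y, B₂ x y = ∑ g : C, B₁ (ρ g x) (ρ g y) := fun x y => by simp [B₂]
    have hsum : ∀ x y, B₂ x y + B₂ y x = B x y := by
      intro x y
      rw [hB₂, hB₂, ← Finset.sum_add_distrib]
      have e : ∀ g : C, B₁ (ρ g x) (ρ g y) + B₁ (ρ g y) (ρ g x) = B x y := fun g => by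
        rw [← hinv g x y, ← hB₁]; rfl
      rw [Finset.sum_congr rfl fun g _ => e g, Finset.sum_const, Finset.card_univ,
        ← Nat.card_eq_fintype_card, nsmul_eq_mul]
      have : (Nat.card C : ZMod 2) = 1 := by
        rw [ZMod.natCast_eq_one_iff_odd, ← Nat.not_even_iff_odd, even_iff_two_dvd]
        exact hC
      rw [this, one_mul]
    refine ⟨_, isGood_gauss hM hC ρ B₂ (fun g x y => ?_)
      (fun x hx => hnd x fun y => hsum x y ▸ hx y) ψ hψ hψm⟩
    rw [hB₂, hB₂]
    refine (Finset.sum_congr rfl fun h _ => ?_).trans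
      (Equiv.sum_comp (Equiv.mulRight g) fun h => B₁ (ρ h x) (ρ h y))
    simp only [Equiv.coe_mulRight, map_mul, Module.End.mul_apply]

end CfsgLib.RealVector
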