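import Cfsg.Agent.RealVector.GC
import Cfsg.Agent.RealVector.CycNorm
import Cfsg.Agent.Chars.Basic.Columns
import Cfsg.Agent.Chars.Basic.Kernel
import Cfsg.Agent.Chars.Induced.Ito
import Mathlib.GroupTheory.NoncommCoprod
import Mathlib.Data.Nat.ChineseRemainder

/-!
# The counting part of the Robinson–Thompson criterion

`card_conjClasses_le`: a class function `δ` on the stabiliser `C` of `v` with algebraic integer
coefficients, lying in `M` off the identity, with `δ 1 = 1` and
`|δ h|² |C_V h| ≤ |V|` bounds the class number of `V ⋊ G` by `|V|`.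
-/

set_option autoImplicit false

namespace CfsgLib.RealVector

open Cfsg CfsgLib.Chars Polynomial
open scoped ComplexConjugate

universe u

section

variable {C : Type u} [Group C] [Fintype C]

/-- Parseval's identity for class functions. -/
theorem sum_norm_sq_classInner {f : C → ℂ} (hf : IsClassFunction C f) :
    (Nat.card C : ℝ) * ∑ φ : IrrCharacter C, ‖classInner f (φ : C → ℂ)‖ ^ 2 = ∑ h, ‖f h‖ ^ 2 := by
  have h1 : classInner f f = ∑ φ : IrrCharacter C, classInner f (φ : C → ℂ) *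
      conj (classInner f (φ : C → ℂ)) := by
    conv_lhs => arg 1; rw [eq_sum_classInner_smul hf]
    rw [classInner_sum_left]
    refine Finset.sum_congr rfl fun φ _ => ?_
    rw [classInner_smul_left, classInner_conj_symm]
  rw [classInner, inv_mul_eq_iff_eq_mul₀ natCard_ne_zero] at h1
  apply Complex.ofReal_injective
  push_cast
  simp only [← Complex.mul_conj']
  exact h1.symm

/-- The numbers of classes counted by commuting pairs. -/
theorem sum_card_centralizer :
    (∑ h : C, (Nat.card (Subgroup.centralizer ({h} : Set C)) : ℝ)) =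
      (Nat.card C : ℝ) * Nat.card (ConjClasses C) := by
  simp only [← sum_irr_norm_sq]
  rw [Finset.sum_comm, Finset.sum_congr rfl fun χ _ =>
    GaloisSum.sum_norm_sq_of_isIrrCharacter χ.2, Finset.sum_const, nsmul_eq_mul,
    Finset.card_univ, ← Nat.card_eq_fintype_card, card_irrCharacter, mul_comm]

/-- The slice of an irreducible character of `A × C` averaged over `C` is integral. -/
theorem isIntegral_avg_slice {A : Type u} [Group A] [Fintype A] {θ : A × C → ℂ}
    (hθ : IsCharacter (A × C) θ) (a : A) :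
    IsIntegral ℤ ((Nat.card C : ℂ)⁻¹ * ∑ h : C, θ (a, h)) := by
  classical
  obtain ⟨s, rfl⟩ := exists_multiset_irr hθ
  induction s using Multiset.induction with
  | empty => simp [isIntegral_zero]
  | cons η s ih =>
    have hsc : IsCharacter (A × C) (s.map fun ψ : IrrCharacter (A × C) => (ψ : A × C → ℂ)).sum := by
      clear ih hθ
      induction s using Multiset.induction with
      | empty => simpa using isCharacter_zero
      | cons x t iht => rw [Multiset.map_cons, Multiset.sum_cons]; exact isCharacter_add (isCharacter_coe x) iht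
    simp only [Multiset.map_cons, Multiset.sum_cons, Pi.add_apply, Finset.sum_add_distrib, mul_add]
    refine IsIntegral.add ?_ (ih hsc)
    let K : Subgroup (A × C) := (MonoidHom.fst A C).ker
    let e : C ≃ K :=
      { toFun := fun h => ⟨(1, h), rfl⟩
        invFun := fun k => k.1.2
        left_inv := fun _ => rfl
        right_inv := fun k => Subtype.ext (Prod.ext (show (1 : A) = k.1.1 from k.2.symm) rfl) }
    have hval : ∀ h : C, ((a, 1) : A × C) * (e h : A × C) = (a, h) := fun h =>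
      Prod.ext (mul_one a) (one_mul h)
    by_cases hK : K ≤ charKer (η : A × C → ℂ)
    · have hc : ∀ h : C, (η : A × C → ℂ) (a, h) = (η : A × C → ℂ) (a, 1) := fun h => by
        rw [← hval h, classFunction_mul_comm (isClassFunction_coe η)]
        exact map_mul_of_mem_charKer (hK (e h).2) _
      simp only [hc, Finset.sum_const, nsmul_eq_mul, Finset.card_univ, ← Nat.card_eq_fintype_card,
        inv_mul_cancel_left₀ natCard_ne_zero]
      exact CfsgLib.Chars.isIntegral_apply (isCharacter_coe η) _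
    · have : Fintype K := Fintype.ofFinite K
      have h0 := sum_coset_eq_zero K η hK (a, 1)
      rw [← Equiv.sum_comp e] at h0
      simp only [hval] at h0
      rw [h0, mul_zero]
      exact isIntegral_zero

end

/-- The counting part. -/
theorem card_conjClasses_le {X : Type u} [Group X] [Finite X] (p : ℕ) [hpf : Fact p.Prime]
    (V : Subgroup X) [V.Normal] (hVexp : ∀ v ∈ V, v ^ p = 1) (hidx : ¬ p ∣ V.index)
    (hself : Subgroup.centralizer (V : Set X) = V) (G : Subgroup X)
    (hGV : Subgroup.IsComplement' V G) (v : X) (hv : v ∈ V)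
    (C : Subgroup X) [Fintype C] (hC : C = G ⊓ Subgroup.centralizer ({v} : Set X))
    {ζ : ℂ} (hζ : IsPrimitiveRoot ζ (Nat.card X)) {M : Ideal AlgInt} (hM : IsPModular p M)
    (δ : ↥C → ℂ) (hgc : IsGC δ) (hmem : ∀ h, δ h ∈ Algebra.adjoin ℚ ({ζ} : Set ℂ)) (hone : δ 1 = 1)
    (hnorm : ∀ h, ∃ q : ℚ, ‖δ h‖ ^ 2 = (q : ℝ) ∧
      (q : ℝ) * (Nat.card ↥(V ⊓ Subgroup.centralizer {(h : X)}) : ℝ) ≤ (Nat.card V : ℝ))
    (hMδ : ∀ h, h ≠ 1 → MemM M (δ h)) :
    Nat.card (ConjClasses X) ≤ Nat.card V := by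
  classical
  have : Fintype X := Fintype.ofFinite X
  have hp : p.Prime := hpf.out
  have hVab : ∀ a ∈ V, ∀ b ∈ V, a * b = b * a := fun a ha b hb => by
    have : a ∈ Subgroup.centralizer (V : Set X) := hself.symm ▸ ha
    exact ((Subgroup.mem_centralizer_iff.1 this) b hb).symm
  have hCG : ∀ h ∈ C, h ∈ G := fun h hh => by rw [hC] at hh; exact hh.1
  have hCv : ∀ h ∈ C, h * v = v * h := fun h hh => by
    rw [hC] at hh; exact Subgroup.mem_centralizer_singleton_iff.1 hh.2
  have hmemC : ∀ g ∈ G, g * v = v * g → g ∈ C := fun g hg hgv => by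
    rw [hC]; exact ⟨hg, Subgroup.mem_centralizer_singleton_iff.2 hgv⟩
  have hCp : ¬ p ∣ Nat.card C := fun h =>
    hidx (hGV.symm.index_eq_card ▸ h.trans (Subgroup.card_dvd_of_le fun x hx => hCG x hx))
  set N := Nat.card X with hNdef
  have hN : 0 < N := Nat.card_pos
  have : NeZero N := ⟨hN.ne'⟩
  have hvp : v ^ p = 1 := hVexp v hv
  -- rational polynomials for the values of `δ`
  have hQ : ∀ z : ℂ, ∃ R : ℚ[X], z ∈ Algebra.adjoin ℚ ({ζ} : Set ℂ) → aeval ζ R = z := by
    intro z
    by_cases hz : z ∈ Algebra.adjoin ℚ ({ζ} : Set ℂ)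
    · obtain ⟨R, hR⟩ := exists_aeval_eq hz
      exact ⟨R, fun _ => hR⟩
    · exact ⟨0, fun h => absurd h hz⟩
  choose Qz hQz using hQ
  let Q : ↥C → ℚ[X] := fun h => Qz (δ h)
  -- polynomials for character values
  have hP : ∀ (χ : IrrCharacter X) (x : X), ∃ R : ℚ[X], ∀ j : ℕ,
      (χ : X → ℂ) (x ^ j) = aeval (ζ ^ j) R := by
    intro χ x
    obtain ⟨n, ρ, hρ⟩ := isCharacter_coe χ
    obtain ⟨P, hP⟩ := Apps.exists_char_poly ρ hζ x
    exact ⟨P.map (algebraMap ℤ ℚ), fun j => by rw [aeval_map_algebraMap, ← hρ]; exact hP j⟩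
  choose P hP using hP
  have hNC : Nat.card C ∣ N := Subgroup.card_subgroup_dvd_card C
  have hPφ : ∀ (φ : IrrCharacter ↥C) (g : ↥C), ∃ R : ℚ[X], ∀ j : ℕ,
      (φ : ↥C → ℂ) (g ^ j) = aeval (ζ ^ j) R := by
    intro φ g
    obtain ⟨n, ρ, hρ⟩ := isCharacter_coe φ
    obtain ⟨c, hc⟩ := hNC
    obtain ⟨R, hR⟩ := Apps.exists_char_poly ρ (hζ.pow hN (a := c) (by rw [hc, mul_comm])) g
    refine ⟨(R.map (algebraMap ℤ ℚ)).comp (Polynomial.X ^ c), fun j => ?_⟩
    rw [aeval_comp, map_pow, aeval_X, ← pow_mul, mul_comm j c, pow_mul, aeval_map_algebraMap, ← hρ]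
    exact hR j
  choose Pφ hPφ using hPφ
  let R : IrrCharacter X → IrrCharacter ↥C → ℚ[X] := fun χ φ =>
    Polynomial.C ((Nat.card C : ℚ)⁻¹) * ∑ h : ↥C, P χ (v * (h : X)) * Q h * Pφ φ h⁻¹
  -- the function whose coefficient it is
  let F : IrrCharacter X → ℂ → ↥C → ℂ := fun χ μ h =>
    aeval μ (P χ (v * (h : X))) * aeval μ (Q h)
  have hRval : ∀ χ φ μ, aeval μ (R χ φ) =
      (Nat.card C : ℂ)⁻¹ * ∑ h : ↥C, F χ μ h * aeval μ (Pφ φ h⁻¹) := fun χ φ μ => by
    simp only [R, F, map_mul, map_sum, aeval_C]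
    congr 1
    simp
  -- the slice
  let f : IrrCharacter X → ↥C → ℂ := fun χ h => (χ : X → ℂ) (v * (h : X))
  have hfgc : ∀ χ, IsGC (f χ) := by
    intro χ
    refine ⟨fun a b => ?_, fun ψ hψ => ?_⟩
    · show (χ : X → ℂ) (v * ((b * a * b⁻¹ : ↥C) : X)) = (χ : X → ℂ) (v * (a : X))
      have : v * ((b * a * b⁻¹ : ↥C) : X) = (b : X) * (v * (a : X)) * (b : X)⁻¹ := by
        push_cast
        rw [← mul_assoc (b : X) v, hCv b b.2]
        simp only [mul_assoc]
      rw [this]
      exact isClassFunction_coe χ _ _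
    · let m : ↥(Subgroup.zpowers v) × ↥C →* X :=
        MonoidHom.noncommCoprod (Subgroup.zpowers v).subtype C.subtype fun a b => by
          obtain ⟨i, hi⟩ := Subgroup.mem_zpowers_iff.1 a.2
          show Commute (a : X) (b : X)
          rw [← hi]
          exact (show Commute v (b : X) from (hCv b b.2).symm).zpow_left i
      have hθ : IsCharacter (↥(Subgroup.zpowers v) × ↥C)
          ((fun d => (χ : X → ℂ) (m d)) * fun d => conj (ψ d.2)) :=
        isCharacter_mul (isCharacter_comp (isCharacter_coe χ) m)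
          (isCharacter_comp (isCharacter_conj hψ) (MonoidHom.snd ↥(Subgroup.zpowers v) ↥C))
      have : Fintype ↥(Subgroup.zpowers v) := Fintype.ofFinite _
      exact isIntegral_avg_slice hθ ⟨v, Subgroup.mem_zpowers v⟩
  have hF1 : ∀ χ h, F χ ζ h = (f χ * δ) h := fun χ h => by
    have h1 := hP χ (v * (h : X)) 1
    rw [pow_one, pow_one] at h1
    show _ * _ = _
    rw [← h1, hQz _ (hmem h)]
    rfl
  have hPinv : ∀ φ : IrrCharacter ↥C, ∀ h, aeval ζ (Pφ φ h⁻¹) = conj ((φ : ↥C → ℂ) h) := by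
    intro φ h
    have := hPφ φ h⁻¹ 1
    rw [pow_one, pow_one] at this
    rw [← this, conj_eq_map_inv (isCharacter_coe φ)]
  have hcoef : ∀ χ φ, aeval ζ (R χ φ) = classInner (f χ * δ) (φ : ↥C → ℂ) := fun χ φ => by
    rw [hRval, classInner]
    simp only [hF1, hPinv]
  have hint : ∀ χ φ, IsIntegral ℤ (aeval ζ (R χ φ)) := fun χ φ =>
    hcoef χ φ ▸ ((hfgc χ).mul hgc).int _ (isCharacter_coe φ)
  -- the coefficients do not vanish
  have hne : ∀ χ φ, aeval ζ (R χ φ) ≠ 0 := by
    intro χ φ h0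
    rw [hcoef, classInner, mul_eq_zero] at h0
    rcases h0 with h0 | h0
    · exact inv_ne_zero natCard_ne_zero h0
    rw [← Finset.add_sum_erase _ _ (Finset.mem_univ (1 : ↥C))] at h0
    have hrest : MemM M (∑ h ∈ Finset.univ.erase (1 : ↥C),
        (f χ * δ) h * conj ((φ : ↥C → ℂ) h)) := by
      refine MemM.sum _ _ fun h hh => MemM.mul_right ?_ ?_
      · exact (hMδ h (Finset.mem_erase.1 hh).1).mul_left
          (CfsgLib.Chars.isIntegral_apply (isCharacter_coe χ) _)
      · rw [conj_eq_map_inv (isCharacter_coe φ)]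
        exact CfsgLib.Chars.isIntegral_apply (isCharacter_coe φ) _
    have h1 : MemM M ((χ : X → ℂ) v * (φ : ↥C → ℂ) 1) := by
      rw [eq_neg_of_add_eq_zero_right h0] at hrest
      have := hrest.neg
      rw [neg_neg, Pi.mul_apply, hone, mul_one, conj_map_one (isCharacter_coe φ)] at this
      simpa [f] using this
    -- the value at `v` is the degree modulo `M`
    have h2 : MemM M ((χ : X → ℂ) v - (χ : X → ℂ) 1) := by
      obtain ⟨s, hs1, hs2, hs3⟩ := exists_roots (isCharacter_coe χ) v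
      have hv1 := hs3 1
      rw [pow_one] at hv1
      simp only [pow_one] at hv1
      rw [hv1, ← hs2, Multiset.map_id']
      clear hv1 hs2 hs3
      induction s using Multiset.induction with
      | empty => simpa using MemM.zero
      | cons z s ih =>
        rw [Multiset.sum_cons, Multiset.card_cons, Nat.cast_add, Nat.cast_one]
        have hz : z ^ p = 1 := by
          obtain ⟨c, hc⟩ := orderOf_dvd_of_pow_eq_one hvp
          rw [hc, pow_mul, hs1 z (Multiset.mem_cons_self z s), one_pow]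
        have := (memM_sub_one hM hz).add (ih fun w hw => hs1 w (Multiset.mem_cons_of_mem hw))
        convert this using 1
        ring
    have h3 : MemM M (((charDegree (χ : X → ℂ) * charDegree (φ : ↥C → ℂ) : ℕ)) : ℂ) := by
      rw [Nat.cast_mul, coe_charDegree, coe_charDegree]
      have := h1.add ((h2.mul_right (CfsgLib.Chars.isIntegral_apply (isCharacter_coe φ) 1)).neg)
      convert this using 1
      ring
    rcases hp.dvd_mul.1 (dvd_of_memM_natCast hM h3) with h4 | h4
    · have : IsMulCommutative V := ⟨⟨fun a b => Subtype.ext (hVab _ a.2 _ b.2)⟩⟩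
      exact hidx (h4.trans (CfsgLib.Chars.Induced.ito V χ))
    · exact hCp (h4.trans (charDegree_dvd_card φ))
  -- Parseval at every conjugate
  set J := primitiveRoots N ℂ
  have hpars : ∀ χ, ∀ μ ∈ J, (Nat.card C : ℝ) * ∑ φ : IrrCharacter ↥C, ‖aeval μ (R χ φ)‖ ^ 2 =
      ∑ h : ↥C, ‖F χ μ h‖ ^ 2 := by
    intro χ μ hμJ
    have hμ := (mem_primitiveRoots hN).1 hμJ
    obtain ⟨k, -, hk⟩ := hζ.eq_pow_of_pow_eq_one hμ.pow_eq_one
    have hkc : k.Coprime N := (hζ.pow_iff_coprime hN k).1 (hk ▸ hμ)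
    have hkC : (Nat.card C).Coprime k := (hkc.coprime_dvd_right hNC).symm
    let σ : ↥C ≃ ↥C := powCoprime hkC
    have hσ : ∀ h, σ h = h ^ k := fun h => rfl
    let G' : ↥C → ℂ := fun g => F χ μ (σ.symm g)
    have hσconj : ∀ a b : ↥C, σ.symm (b * a * b⁻¹) = b * σ.symm a * b⁻¹ := by
      intro a b
      rw [Equiv.symm_apply_eq, hσ, conj_pow, ← hσ, Equiv.apply_symm_apply]
    have hGcl : IsClassFunction ↥C G' := by
      intro a b
      show F χ μ (σ.symm (b * a * b⁻¹)) = F χ μ (σ.symm a)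
      rw [hσconj]
      show _ * _ = _ * _
      congr 1
      · have h1 := hP χ (v * ((b * σ.symm a * b⁻¹ : ↥C) : X)) k
        have h2 := hP χ (v * (σ.symm a : X)) k
        rw [hk] at h1 h2
        rw [← h1, ← h2]
        have e1 : v * ((b * σ.symm a * b⁻¹ : ↥C) : X) = (b : X) * (v * (σ.symm a : X)) * (b : X)⁻¹ := by
          push_cast
          rw [← mul_assoc (b : X) v, hCv b b.2]
          simp only [mul_assoc]
        rw [e1, conj_pow]
        exact isClassFunction_coe χ _ _
      · show aeval μ (Qz (δ (b * σ.symm a * b⁻¹))) = _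
        rw [hgc.cls]
    have hinner : ∀ φ : IrrCharacter ↥C, classInner G' (φ : ↥C → ℂ) = aeval μ (R χ φ) := by
      intro φ
      rw [hRval, classInner, ← Equiv.sum_comp σ]
      congr 1
      refine Finset.sum_congr rfl fun h _ => ?_
      show F χ μ (σ.symm (σ h)) * _ = _
      rw [Equiv.symm_apply_apply, conj_eq_map_inv (isCharacter_coe φ), hσ, ← inv_pow, hPφ φ h⁻¹ k, hk]
    have := sum_norm_sq_classInner hGcl
    simp only [hinner] at this
    rw [this, ← Equiv.sum_comp σ]
    exact Finset.sum_congr rfl fun h _ => by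
      show ‖F χ μ (σ.symm (σ h))‖ ^ 2 = _
      rw [Equiv.symm_apply_apply]
  have hlow : (J.card : ℝ) * (Nat.card C : ℝ) * Nat.card (ConjClasses ↥C) * Nat.card (ConjClasses X) ≤
      ∑ μ ∈ J, ∑ χ : IrrCharacter X, ∑ h : ↥C, ‖F χ μ h‖ ^ 2 := by
    have hone' : ∀ χ : IrrCharacter X, (J.card : ℝ) * (Nat.card C : ℝ) * Nat.card (ConjClasses ↥C) ≤
        ∑ μ ∈ J, ∑ h : ↥C, ‖F χ μ h‖ ^ 2 := by
      intro χ
      rw [← Finset.sum_congr rfl (hpars χ), ← Finset.mul_sum, Finset.sum_comm]
      have h1 := Finset.sum_le_sum (s := (Finset.univ : Finset (IrrCharacter ↥C)))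
        fun φ _ => card_le_sum_norm_sq hN hζ (hint χ φ) (hne χ φ)
      rw [Finset.sum_const, nsmul_eq_mul, Finset.card_univ, ← Nat.card_eq_fintype_card,
        card_irrCharacter] at h1
      calc (J.card : ℝ) * (Nat.card C : ℝ) * Nat.card (ConjClasses ↥C)
          = (Nat.card C : ℝ) * ((Nat.card (ConjClasses ↥C) : ℝ) * J.card) := by ring
        _ ≤ _ := mul_le_mul_of_nonneg_left h1 (Nat.cast_nonneg _)
    have h2 := Finset.sum_le_sum (s := (Finset.univ : Finset (IrrCharacter X))) fun χ _ => hone' χ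
    rw [Finset.sum_const, nsmul_eq_mul, Finset.card_univ, ← Nat.card_eq_fintype_card,
      card_irrCharacter, Finset.sum_comm] at h2
    linarith
  -- centralisers
  have hcen : ∀ h : ↥C, Nat.card ↥(Subgroup.centralizer ({v * (h : X)} : Set X)) =
      Nat.card ↥(V ⊓ Subgroup.centralizer {(h : X)}) *
        Nat.card ↥(Subgroup.centralizer ({h} : Set ↥C)) := by
    intro h
    have hhC : (h : X) ^ Nat.card C = 1 := congrArg Subtype.val (pow_card_eq_one' (x := h))
    have hcomm : Commute v (h : X) := (hCv h h.2).symm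
    obtain ⟨k, hk1, hk2⟩ := Nat.chineseRemainder (hp.coprime_iff_not_dvd.2 hCp) 1 0
    have hsep : (v * (h : X)) ^ k = v := by
      rw [hcomm.mul_pow, pow_eq_pow_iff_modEq.2 (hk1.of_dvd (orderOf_dvd_of_pow_eq_one hvp)),
        pow_eq_pow_iff_modEq.2 (hk2.of_dvd (orderOf_dvd_of_pow_eq_one hhC)), pow_one, pow_zero,
        mul_one]
    rw [← Nat.card_prod]
    refine (Nat.card_eq_of_bijective
      (fun z : ↥(V ⊓ Subgroup.centralizer {(h : X)}) × ↥(Subgroup.centralizer ({h} : Set ↥C)) =>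
        (⟨(z.1 : X) * ((z.2 : ↥C) : X), Subgroup.mem_centralizer_singleton_iff.2 ?_⟩ :
          ↥(Subgroup.centralizer ({v * (h : X)} : Set X)))) ⟨?_, ?_⟩).symm
    · have a1 : Commute (z.1 : X) v := hVab _ z.1.2.1 _ hv
      have a2 : Commute (z.1 : X) (h : X) := Subgroup.mem_centralizer_singleton_iff.1 z.1.2.2
      have a3 : Commute ((z.2 : ↥C) : X) v := hCv _ (z.2 : ↥C).2
      have a4 : Commute ((z.2 : ↥C) : X) (h : X) :=
        congrArg Subtype.val (Subgroup.mem_centralizer_singleton_iff.1 z.2.2)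
      exact ((a1.mul_right a2).mul_left (a3.mul_right a4)).eq
    · rintro ⟨⟨u, hu⟩, ⟨⟨g, hg⟩, hg0⟩⟩ ⟨⟨u', hu'⟩, ⟨⟨g', hg'⟩, hg0'⟩⟩ hh
      have := @hGV.1 (⟨u, hu.1⟩, ⟨g, hCG g hg⟩) (⟨u', hu'.1⟩, ⟨g', hCG g' hg'⟩)
        (congrArg Subtype.val hh)
      simp only [Prod.mk.injEq, Subtype.mk.injEq] at this ⊢
      exact this
    · rintro ⟨y, hy⟩
      obtain ⟨⟨⟨u, hu⟩, ⟨g, hg⟩⟩, rfl⟩ := hGV.2 y
      have hy' : Commute (u * g) (v * (h : X)) := Subgroup.mem_centralizer_singleton_iff.1 hy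
      have h1 : Commute (u * g) v := hsep ▸ hy'.pow_right k
      have h2 : Commute (u * g) (h : X) := by
        have h3 := h1.inv_right.mul_right hy'
        rwa [inv_mul_cancel_left] at h3
      have h5 : Commute g v := by
        have h6 : Commute u v := hVab u hu v hv
        have h7 := h6.inv_left.mul_left h1
        rwa [inv_mul_cancel_left] at h7
      have hgC : g ∈ C := hmemC g hg h5.eq
      have hgh : g * (h : X) = (h : X) * g := by
        -- both sides have the same part in `G`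
        have e1 : u * (g * (h : X)) = ((h : X) * u * (h : X)⁻¹) * ((h : X) * g) := by
          rw [← mul_assoc, h2.eq]
          group
        have := @hGV.1 (⟨u, hu⟩, ⟨g * (h : X), G.mul_mem hg (hCG _ h.2)⟩)
          (⟨(h : X) * u * (h : X)⁻¹, ‹V.Normal›.conj_mem u hu _⟩,
            ⟨(h : X) * g, G.mul_mem (hCG _ h.2) hg⟩) e1
        exact congrArg (fun z : ↥V × ↥G => (z.2 : X)) this
      have h8 : Commute u (h : X) := by
        have h9 : Commute g (h : X) := hgh
        have h10 := h2.mul_left h9.inv_left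
        rwa [mul_inv_cancel_right] at h10
      exact ⟨(⟨u, hu, Subgroup.mem_centralizer_singleton_iff.2 h8.eq⟩,
        ⟨⟨g, hgC⟩, Subgroup.mem_centralizer_singleton_iff.2 (Subtype.ext hgh)⟩), rfl⟩
  have hup : ∀ μ ∈ J, ∑ χ : IrrCharacter X, ∑ h : ↥C, ‖F χ μ h‖ ^ 2 ≤
      (Nat.card V : ℝ) * ((Nat.card C : ℝ) * Nat.card (ConjClasses ↥C)) := by
    intro μ hμJ
    have hμ := (mem_primitiveRoots hN).1 hμJ
    obtain ⟨k, -, hk⟩ := hζ.eq_pow_of_pow_eq_one hμ.pow_eq_one
    have hkc : k.Coprime N := (hζ.pow_iff_coprime hN k).1 (hk ▸ hμ)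
    rw [Finset.sum_comm, ← sum_card_centralizer (C := ↥C), Finset.mul_sum]
    refine Finset.sum_le_sum fun h _ => ?_
    obtain ⟨q, hq, hqle⟩ := hnorm h
    have hq' : ‖aeval μ (Q h)‖ ^ 2 = (q : ℝ) :=
      norm_sq_aeval hN hζ hμ (by rw [hQz _ (hmem h)]; exact hq)
    have hcen' : Subgroup.centralizer ({(v * (h : X)) ^ k} : Set X) =
        Subgroup.centralizer ({v * (h : X)} : Set X) := by
      obtain ⟨m, hm⟩ := exists_pow_eq_self_of_coprime (x := v * (h : X)) (n := k)
        (hkc.coprime_dvd_right (orderOf_dvd_natCard _))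
      ext y
      simp only [Subgroup.mem_centralizer_singleton_iff]
      refine ⟨fun hy => ?_, fun hy => (Commute.pow_right hy k).eq⟩
      rw [← hm]
      exact (Commute.pow_right hy m).eq
    have hval : ∀ χ : IrrCharacter X, ‖F χ μ h‖ ^ 2 =
        ‖(χ : X → ℂ) ((v * (h : X)) ^ k)‖ ^ 2 * (q : ℝ) := fun χ => by
      show ‖_ * _‖ ^ 2 = _
      rw [norm_mul, mul_pow, hq', hP χ _ k, hk]
    rw [Finset.sum_congr rfl fun χ _ => hval χ, ← Finset.sum_mul, sum_irr_norm_sq, hcen', hcen h,
      Nat.cast_mul, mul_comm, ← mul_assoc]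
    exact mul_le_mul_of_nonneg_right hqle (Nat.cast_nonneg _)
  have hfin := hlow.trans (Finset.sum_le_card_nsmul J _ _ hup)
  rw [nsmul_eq_mul] at hfin
  have hJ : 0 < J.card := Finset.card_pos.2 ⟨ζ, (mem_primitiveRoots hN).2 hζ⟩
  have hkC : 0 < Nat.card (ConjClasses ↥C) := Nat.card_pos
  have hCpos : 0 < Nat.card C := Nat.card_pos
  have hfin' : J.card * Nat.card C * Nat.card (ConjClasses ↥C) * Nat.card (ConjClasses X) ≤
      J.card * Nat.card C * Nat.card (ConjClasses ↥C) * Nat.card V := by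
    have : (J.card : ℝ) * (Nat.card C : ℝ) * Nat.card (ConjClasses ↥C) * Nat.card (ConjClasses X) ≤
        (J.card : ℝ) * (Nat.card C : ℝ) * Nat.card (ConjClasses ↥C) * Nat.card V := by
      linarith
    exact_mod_cast this
  exact Nat.le_of_mul_le_mul_left hfin' (Nat.mul_pos (Nat.mul_pos hJ hCpos) hkC)

end CfsgLib.RealVector
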