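import Cfsg.Agent.Chars.Basic.Orthogonality
import Cfsg.Agent.Chars.Basic.Values
import Cfsg.Agent.Chars.PermChar.Basic
import Cfsg.Prelude.Def_Blocks
import Mathlib.RingTheory.IntegralClosure.IntegrallyClosed
import Mathlib.RingTheory.Int.Basic

/-!
# Class functions with algebraic integer coefficients

`IsGC f`: the class function `f` has algebraic integer inner product with every character.
`IsGC.of_mul`: division by a character whose values are prime-to-order numbers.
`MemM M z`: the complex number `z` is an element of the ideal `M` of algebraic integers.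
-/

set_option autoImplicit false

namespace CfsgLib.RealVector

open Cfsg CfsgLib.Chars
open scoped ComplexConjugate

universe u v

variable {C : Type u} [Group C] [Fintype C]

/-- A class function all of whose coefficients are algebraic integers. -/
structure IsGC (f : C → ℂ) : Prop where
  cls : IsClassFunction C f
  int : ∀ ψ : C → ℂ, IsCharacter C ψ → IsIntegral ℤ (classInner f ψ)

theorem classInner_mul_left {φ : C → ℂ} (g ψ : C → ℂ) :
    classInner (φ * g) ψ = classInner g ((fun h => conj (φ h)) * ψ) := by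
  unfold classInner
  congr 1
  refine Finset.sum_congr rfl fun h _ => ?_
  simp only [Pi.mul_apply, map_mul, Complex.conj_conj]
  ring

theorem IsGC.of_isCharacter {χ : C → ℂ} (hχ : IsCharacter C χ) : IsGC χ := by
  refine ⟨isClassFunction_of_isCharacter hχ, fun ψ hψ => ?_⟩
  obtain ⟨n, hn⟩ := exists_nat_classInner' hχ hψ
  rw [hn]
  exact isIntegral_natCast n

theorem IsGC.one : IsGC (fun _ : C => (1 : ℂ)) := IsGC.of_isCharacter isCharacter_one

theorem IsGC.add {f g : C → ℂ} (hf : IsGC f) (hg : IsGC g) : IsGC (f + g) := by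
  refine ⟨fun a b => ?_, fun ψ hψ => ?_⟩
  · simp only [Pi.add_apply, hf.cls a b, hg.cls a b]
  · rw [classInner_add_left]
    exact (hf.int ψ hψ).add (hg.int ψ hψ)

theorem IsGC.smul {f : C → ℂ} (hf : IsGC f) {c : ℂ} (hc : IsIntegral ℤ c) : IsGC (c • f) := by
  refine ⟨fun a b => ?_, fun ψ hψ => ?_⟩
  · simp only [Pi.smul_apply, hf.cls a b]
  · rw [classInner_smul_left]
    exact hc.mul (hf.int ψ hψ)

theorem IsGC.zero : IsGC (0 : C → ℂ) := IsGC.of_isCharacter isCharacter_zero

theorem IsGC.sub {f g : C → ℂ} (hf : IsGC f) (hg : IsGC g) : IsGC (f - g) := by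
  rw [sub_eq_add_neg, ← neg_one_smul ℂ g]
  exact hf.add (hg.smul isIntegral_one.neg)

theorem IsGC.sum {ι : Type v} (s : Finset ι) (f : ι → C → ℂ) (h : ∀ i ∈ s, IsGC (f i)) :
    IsGC (∑ i ∈ s, f i) := by
  classical
  induction s using Finset.induction with
  | empty => simpa using IsGC.zero (C := C)
  | insert a s ha ih =>
    rw [Finset.sum_insert ha]
    exact (h a (Finset.mem_insert_self a s)).add (ih fun i hi => h i (Finset.mem_insert_of_mem hi))

theorem IsGC.mul {f g : C → ℂ} (hf : IsGC f) (hg : IsGC g) : IsGC (f * g) := by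
  rw [eq_sum_classInner_smul hf.cls, Finset.sum_mul]
  refine IsGC.sum _ _ fun φ _ => ?_
  rw [smul_mul_assoc]
  refine IsGC.smul ⟨fun a b => ?_, fun ψ hψ => ?_⟩ (hf.int _ (isCharacter_coe φ))
  · simp only [Pi.mul_apply, hg.cls a b, isClassFunction_coe φ a b]
  · rw [classInner_mul_left]
    exact hg.int _ (isCharacter_mul (isCharacter_conj (isCharacter_coe φ)) hψ)

theorem IsGC.isIntegral_apply {f : C → ℂ} (hf : IsGC f) (h : C) : IsIntegral ℤ (f h) := by
  rw [eq_sum_classInner_mul hf.cls h]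
  exact IsIntegral.sum _ fun φ _ =>
    (hf.int _ (isCharacter_coe φ)).mul (CfsgLib.Chars.isIntegral_apply (isCharacter_coe φ) h)

/-- Division by a class function with natural values prime to the group order. -/
theorem IsGC.of_mul {f π : C → ℂ} (hf : IsClassFunction C f) (hfi : ∀ h, IsIntegral ℤ (f h))
    (hπ : IsGC π) (hπv : ∀ h, ∃ k : ℕ, π h = k ∧ k.Coprime (Nat.card C))
    (hmul : IsGC (π * f)) : IsGC f := by
  classical
  choose k hk hkc using hπv
  have key : ∀ S : Finset ℕ, IsGC (∏ s ∈ S, (π - fun _ => (s : ℂ))) ∧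
      IsGC ((∏ s ∈ S, (π - fun _ => (s : ℂ))) * f - (∏ s ∈ S, -(s : ℂ)) • f) := by
    intro S
    induction S using Finset.induction with
    | empty =>
      refine ⟨by rw [Finset.prod_empty]; exact IsGC.one, ?_⟩
      simpa using IsGC.zero (C := C)
    | insert a S ha ih =>
      have hc : IsGC (fun _ : C => (a : ℂ)) := by
        have h0 : (fun _ : C => (a : ℂ)) = (a : ℂ) • (fun _ : C => (1 : ℂ)) :=
          funext fun _ => (mul_one _).symm
        rw [h0]
        exact IsGC.one.smul (isIntegral_natCast a)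
      rw [Finset.prod_insert ha, Finset.prod_insert ha]
      refine ⟨(hπ.sub hc).mul ih.1, ?_⟩
      have he : (π - fun _ => (a : ℂ)) * (∏ s ∈ S, (π - fun _ => (s : ℂ))) * f -
          (-(a : ℂ) * ∏ s ∈ S, -(s : ℂ)) • f =
          (∏ s ∈ S, (π - fun _ => (s : ℂ))) * (π * f) +
            (-(a : ℂ)) • ((∏ s ∈ S, (π - fun _ => (s : ℂ))) * f - (∏ s ∈ S, -(s : ℂ)) • f) := by
        funext h
        simp only [Pi.sub_apply, Pi.mul_apply, Pi.add_apply, Pi.smul_apply, smul_eq_mul]
        ring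
      rw [he]
      exact (ih.1.mul hmul).add (ih.2.smul (isIntegral_natCast a).neg)
  set S := Finset.univ.image k
  have h0 : (∏ s ∈ S, (π - fun _ => (s : ℂ))) = 0 := by
    funext h
    rw [Finset.prod_apply, Pi.zero_apply]
    exact Finset.prod_eq_zero (Finset.mem_image_of_mem k (Finset.mem_univ h))
      (by simp [hk h])
  obtain ⟨-, hb⟩ := key S
  rw [h0, zero_mul, zero_sub] at hb
  refine ⟨hf, fun ψ hψ => ?_⟩
  have h1 : IsIntegral ℤ (((∏ s ∈ S, s : ℕ) : ℂ) * classInner f ψ) := by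
    have := (hb.smul isIntegral_one.neg).int ψ hψ
    rw [smul_neg, neg_smul, one_smul, neg_neg, classInner_smul_left, Finset.prod_neg, mul_assoc]
      at this
    have h2 := (isIntegral_one.neg.pow S.card).mul this
    rwa [← mul_assoc, ← pow_add, ← two_mul, pow_mul, neg_one_sq, one_pow, one_mul,
      ← Nat.cast_prod] at h2
  have h2 : IsIntegral ℤ ((Nat.card C : ℂ) * classInner f ψ) := by
    rw [classInner, ← mul_assoc, mul_inv_cancel₀ natCard_ne_zero, one_mul]
    refine IsIntegral.sum _ fun g _ => (hfi g).mul ?_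
    rw [conj_eq_map_inv hψ]
    exact CfsgLib.Chars.isIntegral_apply hψ _
  have hcop : (∏ s ∈ S, s).Coprime (Nat.card C) :=
    Nat.Coprime.prod_left fun s hs => by
      obtain ⟨h, -, rfl⟩ := Finset.mem_image.1 hs
      exact hkc h
  obtain ⟨a, b, hab⟩ := Int.isCoprime_iff_gcd_eq_one.2
    (by exact_mod_cast hcop : Int.gcd ((∏ s ∈ S, s : ℕ) : ℤ) (Nat.card C : ℤ) = 1)
  have h3 : classInner f ψ = (a : ℂ) * (((∏ s ∈ S, s : ℕ) : ℂ) * classInner f ψ) +
      (b : ℂ) * ((Nat.card C : ℂ) * classInner f ψ) := by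
    have : ((a : ℂ) * ((∏ s ∈ S, s : ℕ) : ℂ) + (b : ℂ) * (Nat.card C : ℂ)) = 1 := by
      exact_mod_cast congrArg (fun z : ℤ => (z : ℂ)) hab
    rw [← mul_assoc, ← mul_assoc, ← add_mul, this, one_mul]
  rw [h3]
  exact ((isIntegral_intCast a).mul h1).add ((isIntegral_intCast b).mul h2)

/-- Weighted counts of fixed points have algebraic integer coefficients. -/
theorem isGC_weighted_fix {T : Type v} [Fintype T] [DecidableEq T] [MulAction C T] {ι : Type}
    [Fintype ι] [DecidableEq ι] (q : T → ι) (hq : ∀ (h : C) t, q (h • t) = q t) (g : ι → ℂ)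
    (hg : ∀ i, IsIntegral ℤ (g i)) :
    IsGC (fun h : C => ∑ t ∈ Finset.univ.filter (fun t : T => h • t = t), g (q t)) := by
  classical
  have heq : (fun h : C => ∑ t ∈ Finset.univ.filter (fun t : T => h • t = t), g (q t)) =
      ∑ i : ι, g i • fun h : C =>
        ((Finset.univ.filter fun t : T => h • t = t ∧ q t = i).card : ℂ) := by
    funext h
    rw [Finset.sum_apply, ← Finset.sum_fiberwise _ q]
    refine Finset.sum_congr rfl fun i _ => ?_
    rw [Pi.smul_apply, smul_eq_mul, Finset.sum_congr rfl (g := fun _ => g i)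
      (fun t ht => congrArg g (Finset.mem_filter.1 ht).2), Finset.sum_const, nsmul_eq_mul,
      Finset.filter_filter, mul_comm]
  rw [heq]
  refine IsGC.sum _ _ fun i _ => IsGC.smul (IsGC.of_isCharacter ?_) (hg i)
  letI : MulAction C {t : T // q t = i} :=
    { smul := fun h t => ⟨h • t.1, (hq h t.1).trans t.2⟩
      one_smul := fun t => Subtype.ext (one_smul C t.1)
      mul_smul := fun a b t => Subtype.ext (mul_smul a b t.1) }
  have : (fun h : C => ((Finset.univ.filter fun t : T => h • t = t ∧ q t = i).card : ℂ)) =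
      CfsgLib.Chars.PermChar.fixChar C {t : T // q t = i} := by
    funext h
    unfold CfsgLib.Chars.PermChar.fixChar
    rw [← Fintype.card_subtype, ← Nat.card_eq_fintype_card]
    congr 1
    exact Nat.card_congr
      ⟨fun t => ⟨⟨t.1, t.2.2⟩, Subtype.ext t.2.1⟩,
        fun t => ⟨t.1.1, congrArg Subtype.val t.2, t.1.2⟩, fun _ => rfl, fun _ => rfl⟩
  rw [this]
  exact CfsgLib.Chars.PermChar.isCharacter_fixChar

/-- The complex number `z` is an algebraic integer in `M`. -/
def MemM (M : Ideal AlgInt) (z : ℂ) : Prop := ∃ a : AlgInt, a ∈ M ∧ (a : ℂ) = z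

theorem MemM.add {M : Ideal AlgInt} {x y : ℂ} (hx : MemM M x) (hy : MemM M y) :
    MemM M (x + y) := by
  obtain ⟨a, ha, rfl⟩ := hx
  obtain ⟨b, hb, rfl⟩ := hy
  exact ⟨a + b, M.add_mem ha hb, rfl⟩

theorem MemM.zero {M : Ideal AlgInt} : MemM M 0 := ⟨0, M.zero_mem, rfl⟩

theorem MemM.neg {M : Ideal AlgInt} {x : ℂ} (hx : MemM M x) : MemM M (-x) := by
  obtain ⟨a, ha, rfl⟩ := hx
  exact ⟨-a, M.neg_mem ha, rfl⟩

theorem MemM.mul_left {M : Ideal AlgInt} {x y : ℂ} (hx : IsIntegral ℤ x) (hy : MemM M y) :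
    MemM M (x * y) := by
  obtain ⟨b, hb, rfl⟩ := hy
  exact ⟨⟨x, hx⟩ * b, M.mul_mem_left _ hb, rfl⟩

theorem MemM.mul_right {M : Ideal AlgInt} {x y : ℂ} (hy : MemM M y) (hx : IsIntegral ℤ x) :
    MemM M (y * x) := mul_comm x y ▸ hy.mul_left hx

theorem MemM.sum {M : Ideal AlgInt} {ι : Type v} (s : Finset ι) (f : ι → ℂ)
    (h : ∀ i ∈ s, MemM M (f i)) : MemM M (∑ i ∈ s, f i) := by
  classical
  induction s using Finset.induction with
  | empty => simpa using MemM.zero
  | insert a s ha ih =>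
    rw [Finset.sum_insert ha]
    exact (h a (Finset.mem_insert_self a s)).add (ih fun i hi => h i (Finset.mem_insert_of_mem hi))

theorem MemM.natCast_of_dvd {p : ℕ} {M : Ideal AlgInt} (hM : IsPModular p M) {m : ℕ}
    (h : p ∣ m) : MemM M (m : ℂ) := by
  obtain ⟨c, rfl⟩ := h
  exact ⟨(p : AlgInt) * (c : AlgInt), M.mul_mem_right _ hM.2.2, by push_cast; rfl⟩

/-- A natural number in `M` is divisible by `p`. -/
theorem dvd_of_memM_natCast {p : ℕ} {M : Ideal AlgInt} (hM : IsPModular p M) {m : ℕ}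
    (h : MemM M (m : ℂ)) : p ∣ m := by
  by_contra hn
  obtain ⟨a, ha, hae⟩ := h
  obtain rfl : a = (m : AlgInt) := Subtype.ext (by rw [hae]; push_cast; rfl)
  have hc : IsCoprime (p : ℤ) (m : ℤ) :=
    Nat.Coprime.isCoprime ((Nat.Prime.coprime_iff_not_dvd hM.1).2 hn)
  obtain ⟨x, y, hxy⟩ := hc
  refine hM.2.1.ne_top ((Ideal.eq_top_iff_one M).2 ?_)
  have : (x : AlgInt) * (p : AlgInt) + (y : AlgInt) * (m : AlgInt) = 1 := by
    exact_mod_cast congrArg (fun z : ℤ => (z : AlgInt)) hxy
  rw [← this]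
  exact M.add_mem (M.mul_mem_left _ hM.2.2) (M.mul_mem_left _ ha)

/-- A root of unity of order dividing `p` is `1` modulo `M`. -/
theorem memM_sub_one {p : ℕ} {M : Ideal AlgInt} (hM : IsPModular p M) {z : ℂ} (hz : z ^ p = 1) :
    MemM M (z - 1) := by
  have hp := hM.1
  have hzi : IsIntegral ℤ z := IsIntegral.of_pow hp.pos (hz ▸ isIntegral_one)
  set a : AlgInt := ⟨z, hzi⟩
  refine ⟨a - 1, ?_, rfl⟩
  have : M.IsMaximal := hM.2.1
  rw [← Ideal.Quotient.eq_zero_iff_mem]
  have : Fact p.Prime := ⟨hp⟩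
  have : CharP (AlgInt ⧸ M) p := (CharP.charP_iff_prime_eq_zero hp).2 (by
    rw [← map_natCast (Ideal.Quotient.mk M), Ideal.Quotient.eq_zero_iff_mem]
    exact hM.2.2)
  apply eq_zero_of_pow_eq_zero (n := p)
  rw [map_sub, map_one, sub_pow_char, one_pow, ← map_pow, sub_eq_zero]
  rw [show a ^ p = 1 from Subtype.ext hz, map_one]

end CfsgLib.RealVector
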