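import Cfsg.Agent.RealVector.Good
import Mathlib.NumberTheory.LegendreSymbol.AddCharacter
import Mathlib.Algebra.Group.AddChar
import Mathlib.LinearAlgebra.FiniteDimensional.Lemmas
import Mathlib.LinearAlgebra.BilinearMap

/-!
# Good functions from Gauss sums

`isGood_gauss`: an invariant bilinear form `B` with nondegenerate symmetrisation gives the good
function `h ↦ ∑_{y ∈ [U,h]} ψ (B y y)`.
-/

set_option autoImplicit false

namespace CfsgLib.RealVector

open Cfsg CfsgLib.Chars
open scoped ComplexConjugate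

universe u v

variable {C : Type u} [Group C] [Fintype C] {p : ℕ} [Fact p.Prime]
variable {U : Type v} [AddCommGroup U] [Module (ZMod p) U] [Finite U]

omit [Finite U] in
/-- Coprime action: no fixed vector is a commutator. -/
theorem disjoint_fixSub_range (hC : ¬ p ∣ Nat.card C) (ρ : Representation (ZMod p) C U) (h : C) :
    Disjoint (fixSub ρ h) (LinearMap.range (ρ h - 1)) := by
  rw [Submodule.disjoint_def]
  rintro y hy ⟨x, rfl⟩
  rw [mem_fixSub] at hy
  set y := (ρ h - 1) x with hy'
  have hx : ρ h x = x + y := by simp [hy']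
  have hpow : ∀ j : ℕ, ρ (h ^ j) x = x + (j : ZMod p) • y := by
    intro j
    induction j with
    | zero => simp
    | succ j ih =>
      rw [pow_succ', map_mul, Module.End.mul_apply, ih, map_add, map_smul, hy, hx, Nat.cast_succ,
        add_smul, one_smul, add_assoc, add_comm y]
  have h0 := hpow (Nat.card C)
  rw [pow_card_eq_one', map_one, Module.End.one_apply, left_eq_add] at h0
  refine (smul_eq_zero.1 h0).resolve_left fun e => hC ?_
  exact (ZMod.natCast_eq_zero_iff _ _).1 e

theorem isCompl_fixSub_range (hC : ¬ p ∣ Nat.card C) (ρ : Representation (ZMod p) C U) (h : C) :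
    IsCompl (fixSub ρ h) (LinearMap.range (ρ h - 1)) :=
  (Submodule.isCompl_iff_disjoint _ _ (by
    rw [← LinearMap.finrank_range_add_finrank_ker (ρ h - 1), add_comm]; rfl)).2
    (disjoint_fixSub_range hC ρ h)

section

variable (B : U →ₗ[ZMod p] U →ₗ[ZMod p] ZMod p) (ψ : AddChar (ZMod p) ℂ)

/-- The Gauss sum of a subspace. -/
noncomputable def gaussSum' (W : Submodule (ZMod p) U) : ℂ :=
  ∑ᶠ x : W, ψ (B x x)

theorem gaussSum'_eq (W : Submodule (ZMod p) U) [Fintype W] :
    gaussSum' B ψ W = ∑ x : W, ψ (B x x) := finsum_eq_sum_of_fintype _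

theorem addChar_conj [NeZero p] (a : ZMod p) : conj (ψ a) = ψ (-a) := by
  rw [AddChar.map_neg_eq_inv, Complex.inv_eq_conj]
  refine Complex.norm_eq_one_of_pow_eq_one (n := p) ?_ (NeZero.ne p)
  rw [← AddChar.map_nsmul_eq_pow]
  simp

/-- The squared absolute value of a nondegenerate Gauss sum. -/
theorem gaussSum'_mul_conj (hψ : ∀ a, ψ a = 1 → a = 0) (W : Submodule (ZMod p) U)
    (hnd : ∀ x ∈ W, (∀ y ∈ W, B x y + B y x = 0) → x = 0) :
    gaussSum' B ψ W * conj (gaussSum' B ψ W) = (Nat.card W : ℂ) := by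
  classical
  have : Fintype W := Fintype.ofFinite W
  rw [gaussSum'_eq, map_sum, Finset.mul_sum]
  simp only [Finset.sum_mul, addChar_conj, ← ψ.map_add_eq_mul]
  have hcalc : ∀ y : W, ∑ x : W, ψ (B x x + -B y y) =
      ∑ z : W, ψ (B z z) * ψ (B z y + B y z) := by
    intro y
    rw [← Equiv.sum_comp (Equiv.addRight y)]
    refine Finset.sum_congr rfl fun z _ => ?_
    rw [← ψ.map_add_eq_mul]
    congr 1
    simp only [Equiv.coe_addRight, Submodule.coe_add, map_add, LinearMap.add_apply]
    ring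
  rw [Finset.sum_congr rfl fun y _ => hcalc y, Finset.sum_comm]
  simp only [← Finset.mul_sum]
  rw [Finset.sum_eq_single (0 : W) (fun z _ hz => ?_) (fun h => absurd (Finset.mem_univ _) h)]
  · simp [Nat.card_eq_fintype_card]
  · let φ : AddChar W ℂ :=
      ψ.compAddMonoidHom ((B (z : U) + B.flip (z : U)).comp W.subtype).toAddMonoidHom
    have hφ : ∑ y : W, φ y = 0 := AddChar.sum_eq_zero_of_ne_one fun h1 => hz (Subtype.ext
      (hnd z z.2 fun y hy => hψ _ (DFunLike.congr_fun h1 ⟨y, hy⟩)))
    exact mul_eq_zero_of_right _ hφ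

end

/-- The Gauss sum good function. -/
theorem isGood_gauss {ζ : ℂ} {M : Ideal AlgInt} (hM : IsPModular p M) (hC : ¬ p ∣ Nat.card C)
    (ρ : Representation (ZMod p) C U) (B : U →ₗ[ZMod p] U →ₗ[ZMod p] ZMod p)
    (hinv : ∀ h x y, B (ρ h x) (ρ h y) = B x y)
    (hnd : ∀ x, (∀ y, B x y + B y x = 0) → x = 0) (ψ : AddChar (ZMod p) ℂ)
    (hψ : ∀ a, ψ a = 1 → a = 0) (hψm : ∀ a, ψ a ∈ Algebra.adjoin ℚ ({ζ} : Set ℂ)) :
    IsGood ζ M ρ fun h => gaussSum' B ψ (LinearMap.range (ρ h - 1)) := by
  classical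
  have : Fintype U := Fintype.ofFinite U
  have hψi : ∀ a, IsIntegral ℤ (ψ a) := fun a => IsIntegral.of_pow (Fact.out : p.Prime).pos (by
    rw [← AddChar.map_nsmul_eq_pow]; simpa using isIntegral_one)
  have hψp : ∀ a, ψ a ^ p = 1 := fun a => by rw [← AddChar.map_nsmul_eq_pow]; simp
  have horth : ∀ h, ∀ x ∈ fixSub ρ h, ∀ y ∈ LinearMap.range (ρ h - 1),
      B x y = 0 ∧ B y x = 0 := by
    rintro h x hx _ ⟨z, rfl⟩
    rw [mem_fixSub] at hx
    constructor
    · rw [LinearMap.sub_apply, Module.End.one_apply, map_sub, sub_eq_zero]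
      conv_lhs => rw [← hx]
      exact hinv h x z
    · rw [LinearMap.sub_apply, Module.End.one_apply, map_sub, LinearMap.sub_apply, sub_eq_zero]
      conv_lhs => rw [← hx]
      exact hinv h z x
  have hndfix : ∀ h, ∀ x ∈ fixSub ρ h, (∀ y ∈ fixSub ρ h, B x y + B y x = 0) → x = 0 := by
    intro h x hx hxy
    refine hnd x fun y => ?_
    obtain ⟨a, ha, b, hb, rfl⟩ := Submodule.mem_sup.1
      ((isCompl_fixSub_range hC ρ h).sup_eq_top ▸ Submodule.mem_top : y ∈ _)
    obtain ⟨e1, e2⟩ := horth h x hx b hb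
    simp only [map_add, LinearMap.add_apply, e1, e2, add_zero]
    exact hxy a ha
  have hndrange : ∀ h, ∀ x ∈ LinearMap.range (ρ h - 1),
      (∀ y ∈ LinearMap.range (ρ h - 1), B x y + B y x = 0) → x = 0 := by
    intro h x hx hxy
    refine hnd x fun y => ?_
    obtain ⟨a, ha, b, hb, rfl⟩ := Submodule.mem_sup.1
      ((isCompl_fixSub_range hC ρ h).sup_eq_top ▸ Submodule.mem_top : y ∈ _)
    obtain ⟨e1, e2⟩ := horth h a ha x hx
    simp only [map_add, LinearMap.add_apply, e1, e2, zero_add]
    exact hxy b hb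
  set δ := fun h => gaussSum' B ψ (LinearMap.range (ρ h - 1)) with hδ
  have hint : ∀ h, IsIntegral ℤ (δ h) := fun h => by
    simp only [hδ, gaussSum'_eq]
    exact IsIntegral.sum _ fun x _ => hψi _
  have hsplit : ∀ h, gaussSum' B ψ ⊤ = gaussSum' B ψ (fixSub ρ h) * δ h := by
    intro h
    simp only [hδ, gaussSum'_eq]
    rw [Finset.sum_mul_sum, ← Finset.sum_product', Finset.univ_product_univ]
    rw [← Equiv.sum_comp ((Submodule.prodEquivOfIsCompl _ _ (isCompl_fixSub_range hC ρ h)).trans
      Submodule.topEquiv.symm).toEquiv]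
    refine Finset.sum_congr rfl fun x _ => ?_
    rw [← ψ.map_add_eq_mul]
    congr 1
    obtain ⟨e1, e2⟩ := horth h _ x.1.2 _ x.2.2
    simp only [LinearEquiv.coe_toEquiv, LinearEquiv.trans_apply, Submodule.coe_prodEquivOfIsCompl',
      map_add, Submodule.coe_add]
    have ht : ∀ z : U, ((Submodule.topEquiv.symm z : (⊤ : Submodule (ZMod p) U)) : U) = z :=
      fun z => rfl
    simp only [ht, map_add, LinearMap.add_apply, e1, e2, add_zero, zero_add]
  -- the conjugate sum over the fixed space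
  let g : C → ℂ := fun h => conj (gaussSum' B ψ (fixSub ρ h))
  have hg : IsGC g := by
    letI : MulAction C U :=
      { smul := fun h x => ρ h x
        one_smul := fun x => by show ρ 1 x = x; simp
        mul_smul := fun a b x => by show ρ (a * b) x = ρ a (ρ b x); simp }
    have := isGC_weighted_fix (C := C) (T := U) (q := fun x => B x x)
      (fun h x => hinv h x x) (fun a => ψ (-a)) (fun a => hψi _)
    have e : g = fun h : C => ∑ t ∈ Finset.univ.filter (fun t : U => h • t = t), ψ (-(B t t)) := by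
      funext h
      simp only [g, gaussSum'_eq, map_sum, addChar_conj]
      exact (Finset.sum_subtype (p := fun t => t ∈ fixSub ρ h) _ (fun x => by
        rw [Finset.mem_filter, mem_fixSub]; exact and_iff_right (Finset.mem_univ _))
        fun t => ψ (-(B t t))).symm
    rw [e]
    exact this
  have hgc : IsGC δ := by
    refine isGC_of_fixCard_mul hC ρ hint
      (g := gaussSum' B ψ ⊤ • g) (hg.smul (by
        rw [gaussSum'_eq]; exact IsIntegral.sum _ fun x _ => hψi _)) fun h => ?_
    simp only [Pi.smul_apply, smul_eq_mul, g]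
    rw [hsplit h, mul_comm (gaussSum' B ψ (fixSub ρ h)), mul_assoc,
      gaussSum'_mul_conj B ψ hψ _ (hndfix h), fixCard, mul_comm]
  refine ⟨hgc, fun h => ?_, fun h => ?_, ?_, fun h hh => ?_⟩
  · simp only [hδ, gaussSum'_eq]
    exact sum_mem fun x _ => hψm _
  · have h1 := gaussSum'_mul_conj B ψ hψ _ (hndrange h)
    rw [Complex.mul_conj', ← Complex.ofReal_pow, ← Complex.ofReal_natCast, Complex.ofReal_inj] at h1
    have hc : Nat.card U = fixCard ρ h * Nat.card ↥(LinearMap.range (ρ h - 1)) := by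
      rw [fixCard, ← Nat.card_prod]
      exact (Nat.card_congr
        (Submodule.prodEquivOfIsCompl _ _ (isCompl_fixSub_range hC ρ h)).toEquiv).symm
    show ‖δ h‖ ^ 2 * _ = _
    rw [h1, hc, Nat.cast_mul, mul_comm]
  · have hr : LinearMap.range (ρ 1 - 1) = ⊥ := by rw [map_one, sub_self, LinearMap.range_zero]
    show gaussSum' B ψ (LinearMap.range (ρ 1 - 1)) = 1
    rw [hr, gaussSum', finsum_eq_single _ (0 : (⊥ : Submodule (ZMod p) U))
      (fun x hx => absurd (Subsingleton.elim x 0) hx)]
    simp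
  · simp only [hδ, gaussSum'_eq]
    have e : ∀ x : LinearMap.range (ρ h - 1), ψ (B x x) = (ψ (B x x) - 1) + 1 := fun x => by ring
    rw [Finset.sum_congr rfl fun x _ => e x, Finset.sum_add_distrib, Finset.sum_const,
      nsmul_eq_mul, mul_one, Finset.card_univ, ← Nat.card_eq_fintype_card]
    refine (MemM.sum _ _ fun x _ => memM_sub_one hM (hψp _)).add (MemM.natCast_of_dvd hM ?_)
    obtain ⟨k, hk⟩ := exists_card_eq_pow (LinearMap.range (ρ h - 1))
    rcases Nat.eq_zero_or_pos k with rfl | hk0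
    · exfalso
      apply hh
      have hc : Nat.card U = fixCard ρ h * Nat.card ↥(LinearMap.range (ρ h - 1)) := by
        rw [fixCard, ← Nat.card_prod]
        exact (Nat.card_congr
          (Submodule.prodEquivOfIsCompl _ _ (isCompl_fixSub_range hC ρ h)).toEquiv).symm
      rw [hc, hk, pow_zero, mul_one]
    · rw [hk]
      exact dvd_pow_self p hk0.ne'

end CfsgLib.RealVector
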