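import Cfsg.Agent.RealVector.GC
import Cfsg.Agent.Chars.Apps.RootSums
import Mathlib.RepresentationTheory.Basic
import Mathlib.FieldTheory.Finiteness
import Mathlib.LinearAlgebra.Dimension.Finrank
import Mathlib.Algebra.Field.ZMod

/-!
# Good class functions of a coprime module

`IsGood ζ M ρ δ`: algebraic integer coefficients, values in `ℚ(ζ)`, `|δ h|² |C_U h| = |U|`,
`δ 1 = 1`, and `δ h ∈ M` when `h` moves something.
-/

set_option autoImplicit false

namespace CfsgLib.RealVector

open Cfsg CfsgLib.Chars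
open scoped ComplexConjugate

universe u v w

variable {C : Type u} [Group C] [Fintype C] {p : ℕ} [Fact p.Prime]
variable {U : Type v} [AddCommGroup U] [Module (ZMod p) U] [Finite U]

/-- The fixed space of one element. -/
def fixSub (ρ : Representation (ZMod p) C U) (h : C) : Submodule (ZMod p) U :=
  LinearMap.ker (ρ h - 1)

/-- The number of fixed vectors. -/
noncomputable def fixCard (ρ : Representation (ZMod p) C U) (h : C) : ℕ :=
  Nat.card (fixSub ρ h)

omit [Fintype C] [Finite U] in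
theorem mem_fixSub {ρ : Representation (ZMod p) C U} {h : C} {x : U} :
    x ∈ fixSub ρ h ↔ ρ h x = x := by
  simp [fixSub, sub_eq_zero]

/-- Good class functions. -/
structure IsGood (ζ : ℂ) (M : Ideal AlgInt) (ρ : Representation (ZMod p) C U) (δ : C → ℂ) :
    Prop where
  gc : IsGC δ
  mem : ∀ h, δ h ∈ Algebra.adjoin ℚ ({ζ} : Set ℂ)
  norm_sq : ∀ h, ‖δ h‖ ^ 2 * (fixCard ρ h : ℝ) = (Nat.card U : ℝ)
  one : δ 1 = 1
  memM : ∀ h, fixCard ρ h ≠ Nat.card U → MemM M (δ h)

omit [Fintype C] in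
theorem fixCard_pos (ρ : Representation (ZMod p) C U) (h : C) : 0 < fixCard ρ h := Nat.card_pos

omit [Fintype C] in
theorem exists_card_eq_pow (W : Submodule (ZMod p) U) : ∃ k : ℕ, Nat.card W = p ^ k := by
  refine ⟨Module.finrank (ZMod p) W, ?_⟩
  rw [Module.natCard_eq_pow_finrank (K := ZMod p), Nat.card_zmod]

omit [Fintype C] in
theorem exists_fixCard_eq_pow (ρ : Representation (ZMod p) C U) (h : C) :
    ∃ k : ℕ, fixCard ρ h = p ^ k :=
  exists_card_eq_pow _

theorem coprime_fixCard (hC : ¬ p ∣ Nat.card C) (ρ : Representation (ZMod p) C U) (h : C) :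
    (fixCard ρ h).Coprime (Nat.card C) := by
  obtain ⟨k, hk⟩ := exists_fixCard_eq_pow ρ h
  rw [hk]
  exact ((Nat.Prime.coprime_iff_not_dvd (Fact.out : p.Prime)).2 hC).pow_left k

/-- The permutation character of the module. -/
theorem isGC_fixCard (ρ : Representation (ZMod p) C U) : IsGC fun h => (fixCard ρ h : ℂ) := by
  classical
  have : Fintype U := Fintype.ofFinite U
  letI : MulAction C U :=
    { smul := fun h x => ρ h x
      one_smul := fun x => by show ρ 1 x = x; simp
      mul_smul := fun a b x => by show ρ (a * b) x = ρ a (ρ b x); simp }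
  refine IsGC.of_isCharacter ?_
  have : (fun h : C => (fixCard ρ h : ℂ)) = CfsgLib.Chars.PermChar.fixChar C U := by
    funext h
    unfold CfsgLib.Chars.PermChar.fixChar fixCard
    congr 1
    exact Nat.card_congr (Equiv.subtypeEquivRight fun x => mem_fixSub)
  rw [this]
  exact CfsgLib.Chars.PermChar.isCharacter_fixChar

/-- The product with the permutation character controls the coefficients. -/
theorem isGC_of_fixCard_mul (hC : ¬ p ∣ Nat.card C) (ρ : Representation (ZMod p) C U) {δ g : C → ℂ}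
    (hint : ∀ h, IsIntegral ℤ (δ h)) (hg : IsGC g) (he : ∀ h, (fixCard ρ h : ℂ) * δ h = g h) :
    IsGC δ := by
  have hne : ∀ h, (fixCard ρ h : ℂ) ≠ 0 := fun h => Nat.cast_ne_zero.2 (fixCard_pos ρ h).ne'
  have hcl : IsClassFunction C δ := by
    intro a b
    apply mul_left_cancel₀ (hne (b * a * b⁻¹))
    have := (isGC_fixCard ρ).cls a b
    rw [he, hg.cls, this, he]
  refine IsGC.of_mul hcl hint (isGC_fixCard ρ) (fun h => ⟨_, rfl, coprime_fixCard hC ρ h⟩) ?_
  have : (fun h => (fixCard ρ h : ℂ)) * δ = g := funext he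
  rw [this]
  exact hg

omit [Fintype C] [Finite U] in
theorem fixCard_one (ρ : Representation (ZMod p) C U) : fixCard ρ 1 = Nat.card U := by
  refine (Nat.card_congr (Equiv.subtypeUnivEquiv fun x => ?_))
  rw [mem_fixSub]
  simp

/-- A module with trivial action. -/
theorem isGood_trivial {ζ : ℂ} {M : Ideal AlgInt} (ρ : Representation (ZMod p) C U)
    (h : ∀ (g : C) (x : U), ρ g x = x) : IsGood ζ M ρ fun _ => 1 := by
  have hf : ∀ g, fixCard ρ g = Nat.card U := fun g =>
    Nat.card_congr (Equiv.subtypeUnivEquiv fun x => mem_fixSub.2 (h g x))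
  exact ⟨IsGC.one, fun _ => one_mem _, fun g => by simp [hf], rfl, fun g hg => absurd (hf g) hg⟩

omit [Fintype C] in
theorem fixCard_dvd (ρ : Representation (ZMod p) C U) (h : C) : fixCard ρ h ∣ Nat.card U :=
  AddSubgroup.card_addSubgroup_dvd_card (fixSub ρ h).toAddSubgroup

/-- Products over direct decompositions. -/
theorem IsGood.mul {U₁ : Type v} [AddCommGroup U₁] [Module (ZMod p) U₁] [Finite U₁]
    {U₂ : Type w} [AddCommGroup U₂] [Module (ZMod p) U₂] [Finite U₂]
    {ζ : ℂ} {M : Ideal AlgInt} {ρ : Representation (ZMod p) C U}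
    {ρ₁ : Representation (ZMod p) C U₁} {ρ₂ : Representation (ZMod p) C U₂}
    {δ₁ δ₂ : C → ℂ} (h₁ : IsGood ζ M ρ₁ δ₁) (h₂ : IsGood ζ M ρ₂ δ₂)
    (hcard : Nat.card U = Nat.card U₁ * Nat.card U₂)
    (hfix : ∀ h, fixCard ρ h = fixCard ρ₁ h * fixCard ρ₂ h) : IsGood ζ M ρ (δ₁ * δ₂) := by
  refine ⟨h₁.gc.mul h₂.gc, fun h => mul_mem (h₁.mem h) (h₂.mem h), fun h => ?_, ?_, fun h hh => ?_⟩
  · rw [Pi.mul_apply, norm_mul, hfix, hcard, Nat.cast_mul, Nat.cast_mul, ← h₁.norm_sq h,
      ← h₂.norm_sq h]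
    ring
  · rw [Pi.mul_apply, h₁.one, h₂.one, one_mul]
  · by_cases e : fixCard ρ₁ h = Nat.card U₁
    · refine (h₂.memM h fun e₂ => hh ?_).mul_left (h₁.gc.isIntegral_apply h)
      rw [hfix, hcard, e, e₂]
    · exact (h₁.memM h e).mul_right (h₂.gc.isIntegral_apply h)

end CfsgLib.RealVector
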