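import Cfsg.Agent.RealVector.Gauss
import Cfsg.Agent.CharExtend.Basic
import Cfsg.Agent.Chars.Basic.Kernel
import Cfsg.Agent.Chars.Basic.Columns
import Cfsg.Agent.Chars.Basic.ClassSum
import Cfsg.Agent.Chars.GaloisSum.Basic
import Cfsg.Agent.Chars.PermChar.MultFree
import Mathlib.GroupTheory.SchurZassenhaus
import Mathlib.GroupTheory.NoncommCoprod
import Mathlib.LinearAlgebra.Determinant
import Mathlib.FieldTheory.IsAlgClosed.Basic
import Mathlib.RingTheory.RootsOfUnity.Basic

/-!
# Good functions from Weil characters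

`exists_good_alternating`: for `p` odd an invariant nondegenerate alternating form gives a good
function, the quotient of the degree and the conjugate Weil character by the fixed point counts.
-/

set_option autoImplicit false

namespace CfsgLib.RealVector

open Cfsg CfsgLib.Chars CfsgLib.CharExtend
open scoped ComplexConjugate

universe u v

variable {C : Type u} [Group C] [Fintype C] {p : ℕ} [Fact p.Prime]
variable {U : Type v} [AddCommGroup U] [Module (ZMod p) U]

/-- The Heisenberg group of a bilinear form. -/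
@[ext]
structure Heis (B : U →ₗ[ZMod p] U →ₗ[ZMod p] ZMod p) : Type v where
  vec : U
  scl : ZMod p

variable {B : U →ₗ[ZMod p] U →ₗ[ZMod p] ZMod p}

instance : Mul (Heis B) := ⟨fun x y => ⟨x.vec + y.vec, x.scl + y.scl + B x.vec y.vec⟩⟩
instance : One (Heis B) := ⟨⟨0, 0⟩⟩
instance : Inv (Heis B) := ⟨fun x => ⟨-x.vec, -x.scl + B x.vec x.vec⟩⟩

@[simp] theorem Heis.mul_vec (x y : Heis B) : (x * y).vec = x.vec + y.vec := rfl
@[simp] theorem Heis.mul_scl (x y : Heis B) :
    (x * y).scl = x.scl + y.scl + B x.vec y.vec := rfl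
@[simp] theorem Heis.one_vec : (1 : Heis B).vec = 0 := rfl
@[simp] theorem Heis.one_scl : (1 : Heis B).scl = 0 := rfl
@[simp] theorem Heis.inv_vec (x : Heis B) : x⁻¹.vec = -x.vec := rfl
@[simp] theorem Heis.inv_scl (x : Heis B) : x⁻¹.scl = -x.scl + B x.vec x.vec := rfl

instance : Group (Heis B) where
  mul_assoc x y z := by ext <;> simp <;> abel
  one_mul x := by ext <;> simp
  mul_one x := by ext <;> simp
  inv_mul_cancel x := by ext <;> simp

/-- The coordinates. -/
def Heis.equivProd : Heis B ≃ U × ZMod p where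
  toFun x := (x.vec, x.scl)
  invFun x := ⟨x.1, x.2⟩
  left_inv _ := rfl
  right_inv _ := rfl

instance [Finite U] : Finite (Heis B) := Finite.of_equiv _ Heis.equivProd.symm

/-- The central elements. -/
def Heis.zc (B : U →ₗ[ZMod p] U →ₗ[ZMod p] ZMod p) (t : ZMod p) : Heis B := ⟨0, t⟩

theorem Heis.zc_mem_center (t : ZMod p) : Heis.zc B t ∈ Subgroup.center (Heis B) :=
  Subgroup.mem_center_iff.2 fun x => by ext <;> simp [Heis.zc, add_comm]

theorem Heis.zc_add (s t : ZMod p) : Heis.zc B (s + t) = Heis.zc B s * Heis.zc B t := by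
  ext <;> simp [Heis.zc]

theorem Heis.conj_eq (halt : ∀ a, B a a = 0) (x y : Heis B) :
    y * x * y⁻¹ = x * Heis.zc B (2 * B y.vec x.vec) := by
  have hskew : B x.vec y.vec = -B y.vec x.vec := by
    have := halt (x.vec + y.vec)
    simp only [map_add, LinearMap.add_apply, halt, zero_add, add_zero] at this
    exact eq_neg_of_add_eq_zero_right this
  ext
  · simp [Heis.zc]
  · simp [Heis.zc, halt, hskew]; ring

/-- The automorphism induced by an isometry. -/
def Heis.map (g : U ≃ₗ[ZMod p] U) (hg : ∀ a b, B (g a) (g b) = B a b) : Heis B ≃* Heis B where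
  toFun x := ⟨g x.vec, x.scl⟩
  invFun x := ⟨g.symm x.vec, x.scl⟩
  left_inv x := by ext <;> simp
  right_inv x := by ext <;> simp
  map_mul' x y := by ext <;> simp [hg]

variable [Finite U]

/-- Weil characters, normalised through the determinant. -/
theorem exists_weil {ρ : Representation (ZMod p) C U} (hC : ¬ p ∣ Nat.card C)
    (hinv : ∀ h x y, B (ρ h x) (ρ h y) = B x y) (halt : ∀ a, B a a = 0)
    (hnd : ∀ x, (∀ y, B x y = 0) → x = 0) (hp2 : p ≠ 2) :
    ∃ (n : ℕ) (Ψ : C → ℂ), IsCharacter C Ψ ∧ n * n = Nat.card U ∧ Ψ 1 = n ∧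
      (∀ h, Ψ h * conj (Ψ h) = (fixCard ρ h : ℂ)) ∧
      ∀ h, ∃ (d : ℕ) (w : ℂ), d * d = fixCard ρ h ∧ IsIntegral ℤ w ∧ Ψ h = (d : ℂ) * w := by
  classical
  have hp : p.Prime := Fact.out
  have h2 : (2 : ZMod p) ≠ 0 := fun h => by
    have h' : ((2 : ℕ) : ZMod p) = 0 := by exact_mod_cast h
    exact hp2 ((Nat.prime_dvd_prime_iff_eq hp Nat.prime_two).1
      ((ZMod.natCast_eq_zero_iff _ _).1 h'))
  have : Fintype U := Fintype.ofFinite U
  have : Fintype (Heis B) := Fintype.ofFinite _
  have hcardP : Nat.card (Heis B) = Nat.card U * p := by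
    rw [Nat.card_congr Heis.equivProd, Nat.card_prod, Nat.card_zmod]
  -- an irreducible representation with nontrivial central character
  obtain ⟨χ, hχ⟩ : ∃ χ : IrrCharacter (Heis B),
      (χ : Heis B → ℂ) (Heis.zc B 1) ≠ (χ : Heis B → ℂ) 1 := by
    by_contra hcon
    push_neg at hcon
    have h1 := congrArg Heis.scl (eq_one_of_forall_eq hcon)
    simp [Heis.zc] at h1
  obtain ⟨n, σ, hσ, hσχ⟩ := χ.2
  have hn : 0 < n := pos_of_irreducible hσ
  have : NeZero n := ⟨hn.ne'⟩
  set θ : Heis B → ℂ := (χ : Heis B → ℂ) with hθ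
  have hθ1 : θ 1 = n := by rw [← hσχ, Representation.char_one]; simp
  have hnC : (n : ℂ) ≠ 0 := Nat.cast_ne_zero.2 hn.ne'
  let lam : ZMod p → ℂ := fun t => θ (Heis.zc B t) / θ 1
  have hlam : ∀ t x, θ (Heis.zc B t * x) = lam t * θ x := fun t x =>
    map_mul_of_mem_center χ (Heis.zc_mem_center t) x
  have hlam0 : lam 0 = 1 := div_self (map_one_ne_zero χ)
  have hlam_add : ∀ s t, lam (s + t) = lam s * lam t := fun s t => by
    show θ _ / θ 1 = _
    rw [Heis.zc_add, hlam]
    simp only [lam]
    ring
  have hlam1 : ∀ t : ZMod p, t ≠ 0 → lam t ≠ 1 := by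
    intro t ht h
    apply hχ
    have hpow : ∀ j : ℕ, lam ((j : ZMod p) * t) = 1 := by
      intro j
      induction j with
      | zero => simpa using hlam0
      | succ j ih => rw [Nat.cast_succ, add_mul, one_mul, hlam_add, ih, h, one_mul]
    have := hpow (t⁻¹).val
    rw [ZMod.natCast_zmod_val, inv_mul_cancel₀ ht] at this
    exact (div_eq_one_iff_eq (map_one_ne_zero χ)).1 this
  have hlam_norm : ∀ t, ‖lam t‖ = 1 := fun t => by
    show ‖θ (Heis.zc B t) / θ 1‖ = 1
    rw [norm_div, norm_map_of_mem_center χ (Heis.zc_mem_center t),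
      div_self (norm_ne_zero_iff.2 (map_one_ne_zero χ))]
  have hvanish : ∀ x : Heis B, x.vec ≠ 0 → θ x = 0 := by
    intro x hx
    obtain ⟨b, hb⟩ : ∃ b, B x.vec b ≠ 0 := by
      by_contra hcon
      push_neg at hcon
      exact hx (hnd _ hcon)
    have hb' : B b x.vec ≠ 0 := fun h0 => hb (by
      have := halt (x.vec + b)
      simp only [map_add, LinearMap.add_apply, halt, zero_add, add_zero, h0] at this
      exact this)
    have h1 : θ (x * Heis.zc B (2 * B b x.vec)) = θ x := by
      rw [← Heis.conj_eq halt x ⟨b, 0⟩]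
      exact isClassFunction_coe χ _ _
    rw [Subgroup.mem_center_iff.1 (Heis.zc_mem_center (2 * B b x.vec)) x, hlam] at h1
    by_contra h
    exact hlam1 _ (mul_ne_zero h2 hb') (mul_right_cancel₀ h (h1.trans (one_mul _).symm))
  have hcentre : ∀ x : Heis B, x.vec = 0 → θ x = lam x.scl * n := by
    intro x hx
    have : x = Heis.zc B x.scl * 1 := by ext <;> simp [Heis.zc, hx]
    rw [this, hlam, hθ1]
    simp [Heis.zc]
  -- the degree
  have hdeg : n * n = Nat.card U := by
    have h1 := GaloisSum.sum_norm_sq_of_isIrrCharacter χ.2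
    rw [← Equiv.sum_comp (Heis.equivProd (B := B)).symm, Fintype.sum_prod_type] at h1
    rw [Finset.sum_eq_single (0 : U)] at h1
    rotate_left
    · intro a _ ha
      refine Finset.sum_eq_zero fun t _ => ?_
      rw [← hθ, hvanish _ (show (Heis.equivProd.symm (a, t) : Heis B).vec ≠ 0 from ha)]
      simp
    · exact fun h => absurd (Finset.mem_univ _) h
    have h2 : ∀ t : ZMod p, ‖θ (Heis.equivProd.symm ((0 : U), t))‖ ^ 2 = ((n * n : ℕ) : ℝ) := by
      intro t
      rw [hcentre _ rfl, norm_mul, hlam_norm, one_mul, Complex.norm_natCast]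
      push_cast
      ring
    rw [Finset.sum_congr rfl fun t _ => h2 t, Finset.sum_const, Finset.card_univ, ZMod.card,
      nsmul_eq_mul, hcardP] at h1
    have h3 : p * (n * n) = Nat.card U * p := by exact_mod_cast h1
    exact Nat.eq_of_mul_eq_mul_left hp.pos (h3.trans (mul_comm _ _))
  obtain ⟨m, hm⟩ := exists_card_eq_pow (⊤ : Submodule (ZMod p) U)
  rw [Nat.card_congr Submodule.topEquiv.toEquiv] at hm
  have hncop : n.Coprime (Nat.card C) := by
    refine Nat.Coprime.coprime_dvd_left (dvd_mul_left n n) (?_ : (n * n).Coprime (Nat.card C))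
    rw [hdeg, hm]
    exact ((Nat.Prime.coprime_iff_not_dvd hp).2 hC).pow_left m
  -- intertwiners
  let aut : C → (Heis B ≃* Heis B) := fun h => Heis.map
    { ρ h with
      invFun := ρ h⁻¹
      left_inv := fun x => by
        show ρ h⁻¹ (ρ h x) = x
        rw [← Module.End.mul_apply, ← map_mul, inv_mul_cancel, map_one, Module.End.one_apply]
      right_inv := fun x => by
        show ρ h (ρ h⁻¹ x) = x
        rw [← Module.End.mul_apply, ← map_mul, mul_inv_cancel, map_one, Module.End.one_apply] }
    (hinv h)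
  have haut : ∀ h x, aut h x = ⟨ρ h x.vec, x.scl⟩ := fun _ _ => rfl
  have haut_mul : ∀ a b x, aut (a * b) x = aut a (aut b x) := fun a b x => by
    rw [haut, haut, haut, map_mul]; rfl
  have haut_one : ∀ x, aut 1 x = x := fun x => by rw [haut, map_one]; rfl
  let E : Subgroup (C × Lin n) :=
    { carrier := {e | (∀ x, (e.2 : Module.End ℂ (Fin n → ℂ)) * σ x = σ (aut e.1 x) * e.2) ∧
        LinearMap.det (e.2 : Module.End ℂ (Fin n → ℂ)) = 1}
      mul_mem' := fun {a b} ha hb => by
        refine ⟨fun x => ?_, ?_⟩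
        · simp only [Prod.snd_mul, Units.val_mul, Prod.fst_mul]
          rw [mul_assoc, hb.1 x, ← mul_assoc, ha.1, mul_assoc, haut_mul]
        · simp only [Prod.snd_mul, Units.val_mul]
          rw [map_mul, ha.2, hb.2, one_mul]
      one_mem' := ⟨fun x => by simp [haut_one], by simp⟩
      inv_mem' := fun {a} ha => by
        refine ⟨fun x => ?_, ?_⟩
        · have := ha.1 (aut a.1⁻¹ x)
          rw [← haut_mul, mul_inv_cancel, haut_one] at this
          simp only [Prod.snd_inv, Prod.fst_inv]
          rw [Units.eq_mul_inv_iff_mul_eq, mul_assoc, ← this, Units.inv_mul_cancel_left]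
        · simp only [Prod.snd_inv]
          have h1 : LinearMap.det ((a.2⁻¹ : Lin n) : Module.End ℂ (Fin n → ℂ)) *
              LinearMap.det (a.2 : Module.End ℂ (Fin n → ℂ)) = 1 := by
            rw [← map_mul, Units.inv_mul, map_one]
          rwa [ha.2, mul_one] at h1 }
  have hdetscal : ∀ c : ℂˣ, LinearMap.det ((scal n c : Lin n) : Module.End ℂ (Fin n → ℂ)) =
      (c : ℂ) ^ n := fun c => by
    show LinearMap.det ((algebraMap ℂ (Module.End ℂ (Fin n → ℂ))) (c : ℂ)) = _
    rw [Module.algebraMap_end_eq_smul_id, LinearMap.det_smul, LinearMap.det_id, mul_one,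
      Module.finrank_fin_fun]
  let π : ↥E →* C := (MonoidHom.fst C (Lin n)).comp E.subtype
  have hπsurj : Function.Surjective π := by
    intro h
    obtain ⟨_, T, hT⟩ := exists_conj_of_char_eq σ hσ (σ.comp (aut h).toMonoidHom)
      (funext fun x => by
        show σ.character (aut h x) = σ.character x
        rw [hσχ]
        by_cases hx : x.vec = 0
        · rw [hcentre _ hx, hcentre _ (by rw [haut]; simp [hx]), haut]
        · rw [hvanish _ hx, hvanish]
          rw [haut]
          intro h0
          apply hx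
          have := congrArg (ρ h⁻¹) h0
          rwa [← Module.End.mul_apply, ← map_mul, inv_mul_cancel, map_one, Module.End.one_apply,
            map_zero] at this)
    have hd0 : LinearMap.det (T : Module.End ℂ (Fin n → ℂ)) ≠ 0 := fun h0 => by
      have : LinearMap.det (T : Module.End ℂ (Fin n → ℂ)) *
          LinearMap.det ((T⁻¹ : Lin n) : Module.End ℂ (Fin n → ℂ)) = 1 := by
        rw [← map_mul, Units.mul_inv, map_one]
      simp [h0] at this
    obtain ⟨c, hc⟩ := IsAlgClosed.exists_pow_nat_eq (LinearMap.det (T : Module.End ℂ (Fin n → ℂ)))⁻¹ hn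
    have hc0 : c ≠ 0 := by
      rintro rfl
      rw [zero_pow hn.ne'] at hc
      exact inv_ne_zero hd0 hc.symm
    refine ⟨⟨(h, scal n (Units.mk0 c hc0) * T), ⟨fun x => ?_, ?_⟩⟩, rfl⟩
    · simp only [Units.val_mul]
      have hcomm := congrArg Units.val
        (scal_comm (Units.mk0 c hc0) (MonoidHom.toHomUnits σ (aut h x)))
      simp only [Units.val_mul, MonoidHom.coe_toHomUnits] at hcomm
      rw [mul_assoc, hT x, ← mul_assoc]
      exact (congrArg (· * (T : Module.End ℂ (Fin n → ℂ))) hcomm).trans (mul_assoc _ _ _)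
    · rw [Units.val_mul, map_mul, hdetscal, Units.val_mk0, hc, inv_mul_cancel₀ hd0]
  have hker : ∀ e : ↥π.ker, ∃ c : rootsOfUnity n ℂ, scal n (c : ℂˣ) = (e : ↥E).1.2 := by
    intro e
    have he : (e : ↥E).1.1 = 1 := e.2
    obtain ⟨c, hc⟩ := exists_scal_of_commute hσ (e : ↥E).1.2 fun x => by
      have := (e : ↥E).2.1 x
      rwa [he, haut_one] at this
    refine ⟨⟨c, (mem_rootsOfUnity' n c).2 ?_⟩, hc⟩
    rw [← hdetscal, hc]
    exact (e : ↥E).2.2
  choose root hroot using hker
  let emb : ↥π.ker →* rootsOfUnity n ℂ :=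
    { toFun := root
      map_one' := Subtype.ext (scal_injective hn (by rw [hroot]; exact (map_one (scal n)).symm))
      map_mul' := fun a b => Subtype.ext (scal_injective hn (by
        rw [hroot, Subgroup.coe_mul (rootsOfUnity n ℂ), map_mul, hroot, hroot]; rfl)) }
  have hemb : Function.Injective emb := fun a b hab => by
    apply Subtype.ext; apply Subtype.ext
    refine Prod.ext ((show (a : ↥E).1.1 = 1 from a.2).trans (show (b : ↥E).1.1 = 1 from b.2).symm) ?_
    rw [← hroot a, ← hroot b]
    exact congrArg (fun c : rootsOfUnity n ℂ => scal n (c : ℂˣ)) hab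
  have : Finite ↥π.ker := Finite.of_injective emb hemb
  have : Finite (↥E ⧸ π.ker) :=
    Finite.of_equiv C (QuotientGroup.quotientKerEquivOfSurjective π hπsurj).symm.toEquiv
  have : Finite ↥E := Finite.of_subgroup_quotient π.ker
  have hkercop : Nat.Coprime (Nat.card π.ker) π.ker.index := by
    rw [Subgroup.index_ker, MonoidHom.range_eq_top.2 hπsurj, Subgroup.card_top]
    refine Nat.Coprime.coprime_dvd_left ?_ hncop
    refine (Subgroup.card_dvd_of_injective emb hemb).trans ?_
    rw [Complex.card_rootsOfUnity] <;> simp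
  obtain ⟨H, hH⟩ := Subgroup.exists_right_complement'_of_coprime hkercop
  have hHinj : Function.Injective fun x : ↥H => π (x : ↥E) := by
    intro a b hab
    have hk : (a : ↥E)⁻¹ * b ∈ π.ker := by
      show π _ = 1
      rw [map_mul, map_inv]
      exact inv_mul_eq_one.2 hab
    exact Subtype.ext (inv_mul_eq_one.1
      (Subgroup.mem_bot.1 (hH.disjoint.le_bot ⟨hk, H.mul_mem (H.inv_mem a.2) b.2⟩)))
  have hHsurj : Function.Surjective fun x : ↥H => π (x : ↥E) := by
    intro h
    obtain ⟨e, rfl⟩ := hπsurj h
    obtain ⟨⟨k, x⟩, rfl⟩ := hH.2 e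
    exact ⟨x, by show π x = π (k.1 * x.1); rw [map_mul, show π k.1 = 1 from k.2, one_mul]⟩
  let sec : C →* ↥E := H.subtype.comp
    (MulEquiv.ofBijective (π.comp H.subtype) ⟨hHinj, hHsurj⟩).symm.toMonoidHom
  have hsec : ∀ h, (sec h).1.1 = h := fun h =>
    (MulEquiv.ofBijective (π.comp H.subtype) ⟨hHinj, hHsurj⟩).apply_symm_apply h
  let T : C →* Lin n := (MonoidHom.snd C (Lin n)).comp (E.subtype.comp sec)
  have hT : ∀ h x, (T h : Module.End ℂ (Fin n → ℂ)) * σ x = σ (aut h x) * T h := fun h x => by
    have := (sec h).2.1 x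
    rwa [hsec] at this
  let W : Representation ℂ C (Fin n → ℂ) := (Units.coeHom (Module.End ℂ (Fin n → ℂ))).comp T
  have hWapp : ∀ h, W h = (T h : Module.End ℂ (Fin n → ℂ)) := fun h => rfl
  have hWc : IsCharacter C W.character := ⟨n, W, rfl⟩
  have hnormW : ∀ h, W.character h * conj (W.character h) = (fixCard ρ h : ℂ) := by
    intro h
    -- the absolute value
    let A : Module.End ℂ (Fin n → ℂ) := ∑ x : Heis B, σ x * (T h : Module.End ℂ (Fin n → ℂ)) * σ x⁻¹
    have hA : ∀ y, A * σ y = σ y * A := by
      intro y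
      simp only [A, Finset.sum_mul, Finset.mul_sum]
      refine (Equiv.sum_comp (Equiv.mulLeft y) _).symm.trans (Finset.sum_congr rfl fun x _ => ?_)
      simp only [Equiv.coe_mulLeft, mul_inv_rev, map_mul, mul_assoc]
      rw [← map_mul σ y⁻¹ y, inv_mul_cancel, map_one, mul_one]
    obtain ⟨c, hc⟩ := CfsgLib.Chars.PermChar.exists_eq_smul_id hσ (ψ := A) fun y => (hA y).symm
    have htr : LinearMap.trace ℂ _ A = (Nat.card (Heis B) : ℂ) * W.character h := by
      simp only [A, map_sum]
      rw [Finset.sum_congr rfl (g := fun _ => W.character h) fun x _ => by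
        rw [LinearMap.trace_mul_comm, ← mul_assoc, ← map_mul, inv_mul_cancel, map_one, one_mul]; rfl,
        Finset.sum_const, nsmul_eq_mul, Finset.card_univ, Nat.card_eq_fintype_card]
    have hcn : c * n = (Nat.card (Heis B) : ℂ) * W.character h := by
      rw [← htr, hc, map_smul, LinearMap.trace_id, smul_eq_mul, Module.finrank_fin_fun]
    have h2 : LinearMap.trace ℂ _ (A * (((T h)⁻¹ : Lin n) : Module.End ℂ (Fin n → ℂ))) =
        ∑ x : Heis B, θ (x * aut h x⁻¹) := by
      simp only [A, Finset.sum_mul, map_sum]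
      refine Finset.sum_congr rfl fun x _ => ?_
      rw [mul_assoc (σ x), hT h x⁻¹, ← mul_assoc, mul_assoc, Units.mul_inv, mul_one, ← map_mul, ← hσχ]
      rfl
    have h3 : LinearMap.trace ℂ _ (A * (((T h)⁻¹ : Lin n) : Module.End ℂ (Fin n → ℂ))) = c * conj (W.character h) := by
      rw [hc, smul_mul_assoc, map_smul, smul_eq_mul, conj_eq_map_inv hWc]
      congr 1
      show LinearMap.trace ℂ _ _ = LinearMap.trace ℂ _ (W h⁻¹)
      rw [hWapp, map_inv]
      rfl
    have h4 : ∑ x : Heis B, θ (x * aut h x⁻¹) = ((n * (fixCard ρ h * p) : ℕ) : ℂ) := by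
      have hx : ∀ x : Heis B, θ (x * aut h x⁻¹) = if ρ h x.vec = x.vec then (n : ℂ) else 0 := by
        intro x
        split_ifs with hfix
        · rw [show aut h x⁻¹ = x⁻¹ from by rw [haut]; ext <;> simp [hfix], mul_inv_cancel, hθ1]
        · refine hvanish _ ?_
          rw [haut]
          simp only [Heis.mul_vec, Heis.inv_vec, map_neg]
          intro h0
          exact hfix (add_neg_eq_zero.1 h0).symm
      rw [Finset.sum_congr rfl fun x _ => hx x, ← Finset.sum_filter, Finset.sum_const,
        nsmul_eq_mul]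
      have hcard : (Finset.univ.filter fun x : Heis B => ρ h x.vec = x.vec).card = fixCard ρ h * p := by
        rw [← Fintype.card_subtype, ← Nat.card_eq_fintype_card, fixCard]
        refine Eq.trans ?_ ((Nat.card_prod ↥(fixSub ρ h) (ZMod p)).trans (by rw [Nat.card_zmod]))
        exact Nat.card_congr
          { toFun := fun x => (⟨x.1.vec, mem_fixSub.2 x.2⟩, x.1.scl)
            invFun := fun y => ⟨⟨y.1.1, y.2⟩, mem_fixSub.1 y.1.2⟩
            left_inv := fun _ => rfl
            right_inv := fun _ => rfl }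
      rw [hcard]
      push_cast
      ring
    rw [h3] at h2
    rw [h4] at h2
    have hU : (Nat.card U : ℂ) = (n : ℂ) * n := by exact_mod_cast hdeg.symm
    have hp0 : (p : ℂ) ≠ 0 := Nat.cast_ne_zero.2 hp.ne_zero
    have h5 : (n : ℂ) * ((Nat.card U : ℂ) * p) * (W.character h * conj (W.character h)) =
        (n : ℂ) * ((n : ℂ) * ((n : ℂ) * ((fixCard ρ h : ℂ) * p))) := by
      have e := congrArg (fun z => (n : ℂ) * (n : ℂ) * z) h2
      rw [hcardP] at hcn
      push_cast at hcn e
      linear_combination e - (n : ℂ) * conj (W.character h) * hcn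
    rw [hU] at h5
    have h6 : (n : ℂ) * ((n : ℂ) * n * p) ≠ 0 :=
      mul_ne_zero hnC (mul_ne_zero (mul_ne_zero hnC hnC) hp0)
    refine mul_left_cancel₀ h6 ?_
    linear_combination h5
  refine ⟨n, W.character, hWc, hdeg, ?_, hnormW, fun h => ?_⟩
  · rw [Representation.char_one]; simp
  · -- integrality
    let K : Subgroup (Heis B) :=
      { carrier := {x | aut h x = x}
        mul_mem' := fun {a b} (ha : aut h a = a) (hb : aut h b = b) => by
          show aut h (a * b) = a * b
          rw [map_mul, ha, hb]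
        one_mem' := map_one _
        inv_mem' := fun {a} (ha : aut h a = a) => by
          show aut h a⁻¹ = a⁻¹
          rw [map_inv, ha] }
    let Q := Subgroup.zpowers h
    have hQfix : ∀ g ∈ Q, ∀ x ∈ K, aut g x = x := by
      intro g hg x hx
      obtain ⟨j, rfl⟩ := (isOfFinOrder_of_finite h).mem_powers_iff_mem_zpowers.2 hg
      show aut (h ^ j) x = x
      induction j with
      | zero => simp [haut_one]
      | succ j ih => rw [pow_succ', haut_mul, ih ⟨j, by simp⟩, hx]
    let μ : ↥K × ↥Q →* Lin n :=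
      MonoidHom.noncommCoprod ((MonoidHom.toHomUnits σ).comp K.subtype) (T.comp Q.subtype)
        fun x g => Units.ext (by
          have := hT g x
          rw [hQfix g g.2 x x.2] at this
          exact this.symm)
    let τ : Representation ℂ (↥K × ↥Q) (Fin n → ℂ) := (Units.coeHom _).comp μ
    have hτ : ∀ x g, τ (x, g) = σ (x : Heis B) * (T (g : C) : Module.End ℂ (Fin n → ℂ)) :=
      fun x g => rfl
    have hzK : ∀ t, Heis.zc B t ∈ K := fun t => by
      show aut h _ = _
      rw [haut]; ext <;> simp [Heis.zc]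
    let z : ZMod p → ↥K × ↥Q := fun t => (⟨Heis.zc B t, hzK t⟩, 1)
    have hz : ∀ t, z t ∈ Subgroup.center (↥K × ↥Q) := fun t => Subgroup.mem_center_iff.2 fun y =>
      Prod.ext (Subtype.ext (Subgroup.mem_center_iff.1 (Heis.zc_mem_center t) (y.1 : Heis B)))
        (by simp [z])
    have hzτ : ∀ t q, τ.character (z t * q) = lam t * τ.character q := by
      intro t q
      show LinearMap.trace ℂ _ (τ (z t * q)) = lam t * LinearMap.trace ℂ _ (τ q)
      have hs : σ (Heis.zc B t) = lam t • 1 := by
        have := rep_eq_smul_of_norm_character_eq σ (g := Heis.zc B t) hn.ne' (by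
          rw [hσχ, norm_map_of_mem_center χ (Heis.zc_mem_center t)]
          show ‖θ 1‖ = _
          rw [hθ1, Complex.norm_natCast])
        rw [this, hσχ]
        show (θ _ / n) • (1 : Module.End ℂ (Fin n → ℂ)) = _
        rw [← hθ1]
      have : τ (z t * q) = lam t • τ q := by
        rw [map_mul]
        have h1 : τ (z t) = σ (Heis.zc B t) * (T ((1 : ↥Q) : C) : Module.End ℂ (Fin n → ℂ)) := rfl
        rw [h1, Subgroup.coe_one, map_one, Units.val_one, mul_one, hs, smul_mul_assoc, one_mul]
      rw [this, map_smul, smul_eq_mul]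
    have : Fintype ↥K := Fintype.ofFinite _
    have : Fintype ↥Q := Fintype.ofFinite _
    obtain ⟨s, hs⟩ := exists_multiset_irr (isCharacter_character τ)
    -- projection to the central character
    let ev : ↥K × ↥Q := (1, ⟨h, Subgroup.mem_zpowers h⟩)
    let proj : (↥K × ↥Q → ℂ) → ℂ := fun f => (p : ℂ)⁻¹ * ∑ t : ZMod p, lam (-t) * f (z t * ev)
    have hproj : proj τ.character = τ.character ev := by
      simp only [proj, hzτ, ← mul_assoc (lam (-_)), ← hlam_add, neg_add_cancel, hlam0, one_mul,
        Finset.sum_const, nsmul_eq_mul, Finset.card_univ, ZMod.card]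
      rw [← mul_assoc, inv_mul_cancel₀ (Nat.cast_ne_zero.2 hp.ne_zero), one_mul]
    have hWh : τ.character ev = W.character h := by
      show LinearMap.trace ℂ _ (τ ev) = LinearMap.trace ℂ _ (W h)
      rw [hτ, hWapp]
      simp
    obtain ⟨j, hj⟩ := exists_fixCard_eq_pow ρ h
    have heach : ∀ η : IrrCharacter (↥K × ↥Q), proj (η : ↥K × ↥Q → ℂ) = 0 ∨
        (charDegree (η : ↥K × ↥Q → ℂ) * charDegree (η : ↥K × ↥Q → ℂ) = fixCard ρ h ∧
          ∃ w : ℂ, IsIntegral ℤ w ∧
            proj (η : ↥K × ↥Q → ℂ) = (charDegree (η : ↥K × ↥Q → ℂ) : ℂ) * w) := by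
      intro η
      set d := charDegree (η : ↥K × ↥Q → ℂ) with hd
      have hd1 : (η : ↥K × ↥Q → ℂ) 1 = d := (coe_charDegree η).symm
      let nu : ZMod p → ℂ := fun t => (η : ↥K × ↥Q → ℂ) (z t) / (η : ↥K × ↥Q → ℂ) 1
      have hnu : ∀ t q, (η : ↥K × ↥Q → ℂ) (z t * q) = nu t * (η : ↥K × ↥Q → ℂ) q := fun t q =>
        map_mul_of_mem_center η (hz t) q
      have hzadd : ∀ s t, z (s + t) = z s * z t := fun s t =>
        Prod.ext (Subtype.ext (Heis.zc_add s t)) (mul_one 1).symm
      have hnu_add : ∀ s t, nu (s + t) = nu s * nu t := fun s t => by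
        show (η : ↥K × ↥Q → ℂ) _ / _ = _
        rw [hzadd, hnu]
        simp only [nu]
        ring
      by_cases hsame : ∀ t, nu t = lam t
      · right
        have hev : proj (η : ↥K × ↥Q → ℂ) = (η : ↥K × ↥Q → ℂ) ev := by
          simp only [proj, hnu, hsame, ← mul_assoc (lam (-_)), ← hlam_add, neg_add_cancel, hlam0,
            one_mul, Finset.sum_const, nsmul_eq_mul, Finset.card_univ, ZMod.card]
          rw [← mul_assoc, inv_mul_cancel₀ (Nat.cast_ne_zero.2 hp.ne_zero), one_mul]
        have hvan : ∀ q : ↥K × ↥Q, (q.1 : Heis B).vec ≠ 0 → (η : ↥K × ↥Q → ℂ) q = 0 := by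
          intro q hq
          have hxfix : ρ h (q.1 : Heis B).vec = (q.1 : Heis B).vec := by
            have := congrArg Heis.vec (show aut h (q.1 : Heis B) = q.1 from q.1.2)
            rwa [haut] at this
          obtain ⟨b, hb, hb'⟩ : ∃ b, ρ h b = b ∧ B b (q.1 : Heis B).vec ≠ 0 := by
            by_contra hcon
            push_neg at hcon
            apply hq
            refine hnd _ fun y => ?_
            obtain ⟨a, ha, r, ⟨c, rfl⟩, rfl⟩ := Submodule.mem_sup.1
              ((isCompl_fixSub_range hC ρ h).sup_eq_top ▸ Submodule.mem_top : y ∈ _)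
            have e1 : B (q.1 : Heis B).vec a = 0 := by
              have h1 := hcon a (mem_fixSub.1 ha)
              have h2 := halt ((q.1 : Heis B).vec + a)
              simp only [map_add, LinearMap.add_apply, halt, h1, zero_add, add_zero] at h2
              exact h2
            have e2 : B (q.1 : Heis B).vec ((ρ h - 1) c) = 0 := by
              rw [LinearMap.sub_apply, Module.End.one_apply, map_sub, sub_eq_zero]
              conv_lhs => rw [← hxfix]
              exact hinv h _ c
            rw [map_add, e1, e2, add_zero]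
          let y : ↥K × ↥Q := (⟨⟨b, 0⟩, by show aut h _ = _; rw [haut]; ext <;> simp [hb]⟩, 1)
          have hcj : y * q * y⁻¹ = z (2 * B b (q.1 : Heis B).vec) * q := by
            refine Prod.ext (Subtype.ext ?_) (by simp [y, z])
            show (⟨b, 0⟩ : Heis B) * (q.1 : Heis B) * (⟨b, 0⟩ : Heis B)⁻¹ =
              Heis.zc B (2 * B b (q.1 : Heis B).vec) * (q.1 : Heis B)
            rw [Heis.conj_eq halt, Subgroup.mem_center_iff.1 (Heis.zc_mem_center _)]
          have h1 := isClassFunction_coe η q y
          rw [hcj, hnu, hsame] at h1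
          by_contra hne
          exact hlam1 _ (mul_ne_zero h2 hb') (mul_right_cancel₀ hne (h1.trans (one_mul _).symm))
        have hnorm1 : ∀ (t : ZMod p) (g : ↥Q),
            ‖(η : ↥K × ↥Q → ℂ) (⟨Heis.zc B t, hzK t⟩, g)‖ = d := by
          intro t g
          have hc : ((⟨Heis.zc B t, hzK t⟩, g) : ↥K × ↥Q) ∈ Subgroup.center (↥K × ↥Q) :=
            Subgroup.mem_center_iff.2 fun y =>
              Prod.ext (Subtype.ext (Subgroup.mem_center_iff.1 (Heis.zc_mem_center t) (y.1 : Heis B)))
                (mul_comm' _ _)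
          rw [norm_map_of_mem_center η hc, hd1, Complex.norm_natCast]
        refine ⟨?_, ?_⟩
        · have h1 := GaloisSum.sum_norm_sq_of_isIrrCharacter η.2
          rw [Fintype.sum_prod_type] at h1
          rw [← Finset.sum_filter_add_sum_filter_not Finset.univ (fun x : ↥K => (x : Heis B).vec = 0)
            fun x => ∑ g : ↥Q, ‖(η : ↥K × ↥Q → ℂ) (x, g)‖ ^ 2] at h1
          rw [Finset.sum_eq_zero (s := Finset.univ.filter fun x : ↥K => ¬ (x : Heis B).vec = 0)
            (fun x hx => Finset.sum_eq_zero fun g _ => by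
              rw [hvan (x, g) (Finset.mem_filter.1 hx).2]; simp), add_zero] at h1
          rw [Finset.sum_congr rfl (g := fun _ => (Nat.card Q : ℝ) * ((d * d : ℕ) : ℝ))
            (fun x hx => by
              have hx' : x = ⟨Heis.zc B (x : Heis B).scl, hzK _⟩ := Subtype.ext (by
                ext
                · exact (Finset.mem_filter.1 hx).2
                · rfl)
              rw [Finset.sum_congr rfl (g := fun _ => ((d * d : ℕ) : ℝ)) (fun g _ => by
                rw [hx', hnorm1]; push_cast; ring), Finset.sum_const, nsmul_eq_mul,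
                Finset.card_univ, Nat.card_eq_fintype_card]), Finset.sum_const, nsmul_eq_mul] at h1
          have hcz : (Finset.univ.filter fun x : ↥K => (x : Heis B).vec = 0).card = p := by
            rw [← Fintype.card_subtype, ← Nat.card_eq_fintype_card]
            conv_rhs => rw [← Nat.card_zmod p]
            exact Nat.card_congr
              { toFun := fun x => (x.1 : Heis B).scl
                invFun := fun t => ⟨⟨Heis.zc B t, hzK t⟩, rfl⟩
                left_inv := fun x => Subtype.ext (Subtype.ext (Heis.ext x.2.symm rfl))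
                right_inv := fun _ => rfl }
          have hK : Nat.card K = fixCard ρ h * p := by
            rw [fixCard]
            refine Eq.trans ?_ ((Nat.card_prod ↥(fixSub ρ h) (ZMod p)).trans (by rw [Nat.card_zmod]))
            exact Nat.card_congr
              { toFun := fun x => (⟨(x : Heis B).vec, mem_fixSub.2 (by
                    have := congrArg Heis.vec (show aut h (x : Heis B) = x from x.2)
                    rwa [haut] at this)⟩, (x : Heis B).scl)
                invFun := fun y => ⟨⟨y.1.1, y.2⟩, by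
                  show aut h _ = _
                  rw [haut]
                  ext
                  · exact mem_fixSub.1 y.1.2
                  · rfl⟩
                left_inv := fun _ => rfl
                right_inv := fun _ => rfl }
          rw [hcz, Nat.card_prod, hK] at h1
          have h2 : p * (Nat.card Q * (d * d)) = fixCard ρ h * p * Nat.card Q := by exact_mod_cast h1
          have hQpos : 0 < Nat.card Q := Nat.card_pos
          refine Nat.eq_of_mul_eq_mul_left (Nat.mul_pos hp.pos hQpos) ?_
          rw [mul_assoc p, h2]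
          ring
        · have hcen : ev ∈ Subgroup.center (↥K × ↥Q) := Subgroup.mem_center_iff.2 fun y =>
            Prod.ext (by simp [ev]) (mul_comm' _ _)
          refine ⟨(η : ↥K × ↥Q → ℂ) ev / (η : ↥K × ↥Q → ℂ) 1, ?_, ?_⟩
          · have hi := isIntegral_centralChar η ev
            rw [centralChar] at hi
            have hidx : (Subgroup.centralizer ({ev} : Set (↥K × ↥Q))).index = 1 := by
              rw [Subgroup.index_eq_one, eq_top_iff]
              intro y _
              exact Subgroup.mem_centralizer_singleton_iff.2 (Subgroup.mem_center_iff.1 hcen y)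
            rwa [hidx, Nat.cast_one, one_mul] at hi
          · rw [hev, hd1, mul_div_cancel₀ _ (Nat.cast_ne_zero.2 (charDegree_pos η).ne')]
      · left
        push_neg at hsame
        obtain ⟨t₀, ht₀⟩ := hsame
        simp only [proj, hnu, ← mul_assoc (lam (-_)), ← Finset.sum_mul]
        suffices hS : ∑ t, lam (-t) * nu t = 0 by rw [hS]; simp
        set S := ∑ t, lam (-t) * nu t with hSdef
        have hcoef : lam (-t₀) * nu t₀ ≠ 1 := by
          intro h1
          apply ht₀
          have := congrArg (fun z => lam t₀ * z) h1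
          simp only [← mul_assoc, ← hlam_add, add_neg_cancel, hlam0, one_mul, mul_one] at this
          exact this
        have hshift : lam (-t₀) * nu t₀ * S = S := by
          rw [hSdef, Finset.mul_sum]
          conv_rhs => rw [← Equiv.sum_comp (Equiv.addLeft t₀)]
          refine Finset.sum_congr rfl fun t _ => ?_
          simp only [Equiv.coe_addLeft, neg_add, hlam_add, hnu_add]
          ring
        by_contra hne
        exact hcoef (mul_right_cancel₀ hne (hshift.trans (one_mul S).symm))
    let d := p ^ (j / 2)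
    have hlin : ∀ s : Multiset (IrrCharacter (↥K × ↥Q)), ∃ w : ℂ, IsIntegral ℤ w ∧
        (proj (s.map fun η : IrrCharacter (↥K × ↥Q) => (η : ↥K × ↥Q → ℂ)).sum = 0 ∧ w = 0 ∨
        d * d = fixCard ρ h ∧
        proj (s.map fun η : IrrCharacter (↥K × ↥Q) => (η : ↥K × ↥Q → ℂ)).sum = (d : ℂ) * w) := by
      intro s
      induction s using Multiset.induction with
      | empty => exact ⟨0, isIntegral_zero, Or.inl ⟨by simp [proj], rfl⟩⟩
      | cons η s ih =>
        obtain ⟨w, hw, hs'⟩ := ih
        have hadd : proj (Multiset.map (fun η : IrrCharacter (↥K × ↥Q) => (η : ↥K × ↥Q → ℂ))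
            (η ::ₘ s)).sum = proj (η : ↥K × ↥Q → ℂ) +
            proj (s.map fun η : IrrCharacter (↥K × ↥Q) => (η : ↥K × ↥Q → ℂ)).sum := by
          simp only [proj, Multiset.map_cons, Multiset.sum_cons, Pi.add_apply, mul_add,
            Finset.sum_add_distrib]
        rcases heach η with h0 | ⟨hdd, w', hw', he⟩
        · exact ⟨w, hw, by rw [hadd, h0, zero_add]; exact hs'⟩
        · have hdeq : charDegree (η : ↥K × ↥Q → ℂ) = d := by
            obtain ⟨i, -, hi⟩ := (Nat.dvd_prime_pow hp).1 (hj ▸ hdd ▸ dvd_mul_right _ _)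
            rw [hi, ← pow_add, hj] at hdd
            have := Nat.pow_right_injective hp.two_le hdd
            rw [hi]
            show p ^ i = p ^ (j / 2)
            congr 1
            omega
          rw [hdeq] at hdd he
          refine ⟨w' + w, hw'.add hw, Or.inr ⟨hdd, ?_⟩⟩
          rcases hs' with ⟨h0, hw0⟩ | ⟨-, h0⟩
          · rw [hadd, he, h0, hw0]; ring
          · rw [hadd, he, h0]; ring
    obtain ⟨w, hw, hs'⟩ := hlin s
    rw [← hs, hproj, hWh] at hs'
    rcases hs' with ⟨h0, -⟩ | ⟨hdd, he⟩
    · exfalso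
      have h1 := hnormW h
      rw [h0, zero_mul] at h1
      exact Nat.cast_ne_zero.2 (fixCard_pos ρ h).ne' h1.symm
    · exact ⟨d, w, hdd, hw, he⟩

end CfsgLib.RealVector
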