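import Cfsg.Agent.RealVector.Decompose
import Mathlib.Algebra.Module.ZMod

/-!
# Good functions, multiplicative notation
-/

set_option autoImplicit false

namespace CfsgLib.RealVector

open Cfsg

universe u v

variable {C : Type u} [Group C] [Fintype C] {p : ℕ} [Fact p.Prime]
variable {A : Type v} [CommGroup A] [Module (ZMod p) (Additive A)]

/-- An additive map as a linear map over `ZMod p`. -/
def zmodLin {M N : Type*} [AddCommGroup M] [Module (ZMod p) M] [AddCommGroup N] [Module (ZMod p) N]
    (f : M →+ N) : M →ₗ[ZMod p] N where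
  toFun := f
  map_add' := map_add f
  map_smul' c x := ZMod.map_smul f c x

/-- The representation attached to an action by automorphisms. -/
def actRep (act : C →* MulAut A) : Representation (ZMod p) C (Additive A) where
  toFun h := zmodLin (MonoidHom.toAdditive (act h).toMonoidHom)
  map_one' := by
    refine LinearMap.ext fun x => ?_
    show Additive.ofMul (act 1 (Additive.toMul x)) = x
    rw [map_one]
    rfl
  map_mul' a b := by
    refine LinearMap.ext fun x => ?_
    show Additive.ofMul (act (a * b) (Additive.toMul x)) = Additive.ofMul (act a (act b (Additive.toMul x)))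
    rw [map_mul]
    rfl

theorem actRep_apply (act : C →* MulAut A) (h : C) (x : A) :
    (actRep (p := p) act h) (Additive.ofMul x) = Additive.ofMul (act h x) := rfl

/-- The good function of an invariant nondegenerate pairing. -/
theorem exists_good_mul [Finite A] {ζ : ℂ} {N : ℕ} (hN : 0 < N) (hζ : IsPrimitiveRoot ζ N)
    (hCN : Nat.card C ∣ N) (hpN : p ∣ N) {M : Ideal AlgInt} (hM : IsPModular p M)
    (hC : ¬ p ∣ Nat.card C) (act : C →* MulAut A) (b : A → A → ZMod p)
    (hl : ∀ x x' y, b (x * x') y = b x y + b x' y) (hr : ∀ x y y', b x (y * y') = b x y + b x y')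
    (hinv : ∀ h x y, b (act h x) (act h y) = b x y) (hnd : ∀ x, (∀ y, b x y = 0) → x = 1) :
    ∃ δ : C → ℂ, IsGC δ ∧ (∀ h, δ h ∈ Algebra.adjoin ℚ ({ζ} : Set ℂ)) ∧ δ 1 = 1 ∧
      (∀ h, ‖δ h‖ ^ 2 * (Nat.card {x : A // act h x = x} : ℝ) = (Nat.card A : ℝ)) ∧
      ∀ h, Nat.card {x : A // act h x = x} ≠ Nat.card A → MemM M (δ h) := by
  let row : Additive A → (Additive A →ₗ[ZMod p] ZMod p) := fun x =>
    zmodLin (AddMonoidHom.mk' (fun y => b (Additive.toMul x) (Additive.toMul y))
      fun y y' => hr _ _ _)
  let B : Additive A →ₗ[ZMod p] Additive A →ₗ[ZMod p] ZMod p :=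
    zmodLin (AddMonoidHom.mk' row fun x x' => LinearMap.ext fun y => hl _ _ _)
  obtain ⟨δ, hδ⟩ := exists_good hN hζ hCN hpN hM hC (Nat.card (Additive A)) (Additive A)
    (actRep act) B le_rfl (fun h x y => hinv h _ _)
    (fun x hx => Additive.toMul.injective (hnd _ fun y => hx (Additive.ofMul y)))
  have hfix : ∀ h, fixCard (actRep (p := p) act) h = Nat.card {x : A // act h x = x} := fun h =>
    Nat.card_congr
      { toFun := fun x => ⟨Additive.toMul (x : Additive A),
          congrArg Additive.toMul (mem_fixSub.1 x.2)⟩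
        invFun := fun y => ⟨Additive.ofMul y.1, mem_fixSub.2 (congrArg Additive.ofMul y.2)⟩
        left_inv := fun _ => rfl
        right_inv := fun _ => rfl }
  have hA : Nat.card (Additive A) = Nat.card A := Nat.card_congr Additive.toMul
  refine ⟨δ, hδ.gc, hδ.mem, hδ.one, fun h => ?_, fun h hh => hδ.memM h ?_⟩
  · rw [← hfix, ← hA]; exact hδ.norm_sq h
  · rw [hfix, hA]; exact hh

end CfsgLib.RealVector
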